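import Cfsg.Agent.Blocks.CyclicRank.Mk
import Cfsg.Agent.Blocks.TwoChar.Main

/-!
# The corner of a block of a subgroup inside the group algebra
-/

set_option autoImplicit false
set_option linter.unusedSectionVars false
set_option linter.style.haveILetI false

namespace CfsgLib.Blocks.CyclicRank

open CfsgLib.Blocks CfsgLib.Blocks.CyclicRankOne CfsgLib.PairAlg

variable {k : Type} [Field k] {G : Type*} [Group G] [Fintype G]

noncomputable local instance instFintypeSubgroupCyclicRankCorOf (K : Subgroup G) : Fintype K := Fintype.ofFinite K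

/-- Pushing from a subgroup. -/
noncomputable def inc (C : Subgroup G) : MonoidAlgebra k C →ₐ[k] MonoidAlgebra k G :=
  MonoidAlgebra.mapDomainAlgHom k k C.subtype

theorem coeff_inc {C : Subgroup G} (a : MonoidAlgebra k C) (c : C) : (inc C a).coeff c = a.coeff c :=
  Finsupp.mapDomain_apply C.subtype_injective _ _

theorem supp_inc {C : Subgroup G} (a : MonoidAlgebra k C) : Supp C (inc C a) := fun x hx => by
  by_contra h
  exact hx (Finsupp.mapDomain_notin_range _ x (fun ⟨c, hc⟩ => h (hc ▸ c.2)))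

theorem inc_el {C : Subgroup G} (c : C) : inc (k := k) C (el c) = el (c : G) := by
  simp [inc]

theorem inc_injective (C : Subgroup G) : Function.Injective (inc (k := k) C) := fun a b h =>
  MonoidAlgebra.ext (Finsupp.ext fun c => by rw [← coeff_inc, h, coeff_inc])

theorem exists_inc {C : Subgroup G} {x : MonoidAlgebra k G} (hx : Supp C x) :
    ∃ a : MonoidAlgebra k C, inc C a = x := by
  refine ⟨TwoChar.coords.symm fun c : C => x.coeff c, MonoidAlgebra.ext (Finsupp.ext fun g => ?_)⟩
  by_cases hg : g ∈ C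
  · rw [show g = ((⟨g, hg⟩ : C) : G) from rfl, coeff_inc]
    exact congrFun (TwoChar.coords.apply_symm_apply _) _
  · have h1 : x.coeff g = 0 := by_contra fun h => hg (hx g h)
    rw [h1]
    by_contra h
    exact hg (supp_inc _ g h)

set_option maxHeartbeats 400000 in
/-- The corner of a block of a subgroup inside the group algebra. -/
theorem exists_cor {C : Subgroup G} {e : MonoidAlgebra k C} (hec : ∀ z, Commute e z) (hei : e * e = e)
    (S₀ : Corner k e) {g : MonoidAlgebra k C} (hg : g ∈ S₀.J)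
    (hgJ : S₀.J ≤ Submodule.span k {g} ⊔ S₀.J * S₀.J) :
    ∃ P : Cor k G, P.C = C ∧ P.f = inc C e := by
  classical
  have hcomm := S₀.comm_of_gen hg hgJ
  have hgc := (S₀.mem_J.1 hg).1
  set y' := ∑ i, S₀.u i * g * S₀.v i with hy'
  have hey : e * y' = y' := by
    rw [hy', Finset.mul_sum]
    exact Finset.sum_congr rfl fun i _ => by rw [← mul_assoc, ← mul_assoc, S₀.eu]
  have hye : y' * e = y' := by
    rw [hy', Finset.sum_mul]
    exact Finset.sum_congr rfl fun i _ => by rw [mul_assoc, S₀.ve]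
  have hsum' : ∀ x, x * e = ∑ j, x * S₀.u j * S₀.v j := fun x => by
    have h := congrArg (fun t => x * t) S₀.sum_eq
    simp only [Finset.mul_sum, ← mul_assoc] at h
    exact h.symm
  have hsum'' : ∀ x, e * x = ∑ j, S₀.u j * S₀.v j * x := fun x => by
    have h := congrArg (fun t => t * x) S₀.sum_eq
    simp only [Finset.sum_mul] at h
    exact h.symm
  have hcorc : ∀ z i j, S₀.f * (S₀.v i * z * S₀.u j) * S₀.f = S₀.v i * z * S₀.u j := S₀.cor
  have hycen : ∀ z, y' * z = z * y' := by
    intro z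
    have h1 : y' * z = ∑ i, ∑ j, S₀.u i * (g * (S₀.v i * z * S₀.u j)) * S₀.v j := by
      rw [hy', Finset.sum_mul]
      refine Finset.sum_congr rfl fun i _ => ?_
      calc S₀.u i * g * S₀.v i * z = S₀.u i * g * (S₀.v i * z * e) := by
            rw [mul_assoc (S₀.v i) z e, ← (hec z).eq, ← mul_assoc (S₀.v i) e, S₀.ve, mul_assoc]
        _ = _ := by
            rw [hsum' (S₀.v i * z), Finset.mul_sum]
            simp only [mul_assoc]
    have h2 : z * y' = ∑ i, ∑ j, S₀.u i * ((S₀.v i * z * S₀.u j) * g) * S₀.v j := by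
      conv_lhs => rw [← hey, ← mul_assoc, ← (hec z).eq, hsum'' z, Finset.sum_mul]
      refine Finset.sum_congr rfl fun i _ => ?_
      rw [hy', Finset.mul_sum]
      simp only [mul_assoc]
    rw [h1, h2]
    refine Finset.sum_congr rfl fun i _ => Finset.sum_congr rfl fun j _ => ?_
    rw [hcomm g hgc _ (hcorc z i j)]
  have hyf : y' * S₀.f = g := by
    have h1 : y' * S₀.f = S₀.f * y' * S₀.f := by rw [← hycen S₀.f, mul_assoc, S₀.idem]
    rw [h1, hy', Finset.mul_sum, Finset.sum_mul]
    have h2 : ∀ i, S₀.f * (S₀.u i * g * S₀.v i) * S₀.f = g * ((S₀.f * S₀.u i) * (S₀.v i * S₀.f)) := fun i => by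
      have hd : S₀.f * (S₀.f * S₀.u i) * S₀.f = S₀.f * S₀.u i := by rw [← mul_assoc, S₀.idem, mul_assoc, S₀.uf]
      calc S₀.f * (S₀.u i * g * S₀.v i) * S₀.f = (S₀.f * S₀.u i) * g * (S₀.v i * S₀.f) := by simp only [mul_assoc]
        _ = g * (S₀.f * S₀.u i) * (S₀.v i * S₀.f) := by rw [hcomm g hgc _ hd]
        _ = _ := mul_assoc _ _ _
    rw [Finset.sum_congr rfl fun i _ => h2 i, ← Finset.mul_sum]
    have h3 : ∑ i, S₀.f * S₀.u i * (S₀.v i * S₀.f) = S₀.f := by
      have h4 : ∑ i, S₀.f * S₀.u i * (S₀.v i * S₀.f) = S₀.f * e * S₀.f := by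
        rw [hsum' S₀.f, Finset.sum_mul]
        simp only [mul_assoc]
      rw [h4, S₀.fe, S₀.idem]
    rw [h3, S₀.mul_f hgc]
  have hypow : ∀ i : ℕ, y' ^ i * S₀.f = g ^ i * S₀.f := by
    intro i
    induction i with
    | zero => rw [pow_zero, pow_zero]
    | succ i ih =>
      rw [pow_succ, mul_assoc, hyf, pow_succ, mul_assoc (g ^ i), S₀.mul_f hgc]
      conv_lhs => rw [← S₀.f_mul hgc, ← mul_assoc, ih, mul_assoc, S₀.f_mul hgc]
  have hgN : y' ^ (S₀.N + 1) * S₀.f = 0 := by
    rw [hypow]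
    have := Submodule.pow_mem_pow S₀.J hg (S₀.N + 1)
    rw [S₀.nilJ, Submodule.mem_bot] at this
    rw [this, zero_mul]
  have hexpand : ∀ i : ℕ, y' ^ (i + 1) = ∑ l, S₀.u l * (y' ^ (i + 1) * S₀.f) * S₀.v l := fun i => by
    have hcen : ∀ z, y' ^ (i + 1) * z = z * y' ^ (i + 1) := fun z =>
      ((show Commute y' z from hycen z).pow_left _).eq
    calc y' ^ (i + 1) = y' ^ (i + 1) * e := by rw [pow_succ, mul_assoc, hye]
      _ = _ := by
        rw [hsum' (y' ^ (i + 1))]
        refine Finset.sum_congr rfl fun l _ => ?_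
        conv_rhs => rw [hcen, ← mul_assoc, S₀.uf, ← hcen]
  have hynil : y' ^ (S₀.N + 1) = 0 := by
    rw [hexpand, hgN]
    simp
  have hex : ∃ j, y' ^ (j + 1) = 0 := ⟨_, hynil⟩
  set m := Nat.find hex with hm
  have hm1 : y' ^ (m + 1) = 0 := Nat.find_spec hex
  have hf0 : S₀.f ≠ 0 := fun h => S₀.ρf (by rw [h, map_zero])
  have hmtop : y' ^ m * S₀.f ≠ 0 := by
    rcases Nat.eq_zero_or_pos m with h0 | hpos
    · rwa [h0, pow_zero, one_mul]
    · intro h
      refine Nat.find_min hex (m := m - 1) (by omega) ?_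
      rw [hexpand, show m - 1 + 1 = m by omega, h]
      simp
  let W : Submodule k (MonoidAlgebra k C) :=
    Submodule.span k (Set.range fun i : Fin (m + 1) => y' ^ (i : ℕ) * S₀.f)
  have hpowW : ∀ j : ℕ, g ^ j * S₀.f ∈ W := fun j => by
    rw [← hypow]
    by_cases hj : j < m + 1
    · exact Submodule.subset_span ⟨⟨j, hj⟩, rfl⟩
    · rw [show y' ^ j = y' ^ (j - (m + 1)) * y' ^ (m + 1) by rw [← pow_add]; congr 1; omega, hm1, mul_zero, zero_mul]
      exact W.zero_mem
  have hgpow : ∀ j : ℕ, g ^ (j + 1) = g ^ (j + 1) * S₀.f := fun j => by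
    rw [pow_succ, mul_assoc, S₀.mul_f hgc]
  have hJn : ∀ j : ℕ, S₀.J ^ (j + 1) ≤ Submodule.span k {g ^ (j + 1)} ⊔ S₀.J ^ (j + 2) := by
    intro j
    induction j with
    | zero => rw [zero_add, pow_one, pow_one, zero_add, sq]; exact hgJ
    | succ j ih =>
      calc S₀.J ^ (j + 1 + 1) = S₀.J ^ (j + 1) * S₀.J := pow_succ _ _
        _ ≤ (Submodule.span k {g ^ (j + 1)} ⊔ S₀.J ^ (j + 2)) * S₀.J := mul_le_mul' ih le_rfl
        _ ≤ _ := by
          rw [Submodule.sup_mul, ← pow_succ S₀.J]
          refine sup_le ?_ le_sup_right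
          refine (mul_le_mul' le_rfl hgJ).trans ?_
          rw [Submodule.mul_sup]
          refine sup_le_sup ?_ ?_
          · rw [Submodule.span_mul_span, Set.singleton_mul_singleton, ← pow_succ]
          · rw [show j + 1 + 2 = j + 1 + 2 from rfl, pow_add S₀.J (j + 1) 2, sq]
            refine mul_le_mul' ?_ le_rfl
            rw [Submodule.span_singleton_le_iff_mem]
            exact Submodule.pow_mem_pow S₀.J hg _
  have hJW : ∀ d j : ℕ, j + d = S₀.N → S₀.J ^ (j + 1) ≤ W := by
    intro d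
    induction d with
    | zero =>
      intro j hj
      rw [show j = S₀.N by omega, S₀.nilJ]
      exact bot_le
    | succ d ih =>
      intro j hj
      refine (hJn j).trans (sup_le ?_ (ih (j + 1) (by omega)))
      rw [Submodule.span_singleton_le_iff_mem, hgpow]
      exact hpowW _
  have hJW1 : S₀.J ≤ W := by
    have := hJW S₀.N 0 (by omega)
    rwa [zero_add, pow_one] at this
  have hpoly : ∀ z, ∃ c : ℕ → k, S₀.f * z * S₀.f = ∑ i ∈ Finset.range (m + 1), c i • (y' ^ i * S₀.f) := by
    intro z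
    have hz : S₀.f * (S₀.f * z * S₀.f) * S₀.f = S₀.f * z * S₀.f := by
      rw [← mul_assoc, ← mul_assoc, S₀.idem, mul_assoc (S₀.f * z), S₀.idem]
    obtain ⟨a, ha⟩ := S₀.dec' hz
    have hW : S₀.f * z * S₀.f ∈ W := by
      rw [← sub_add_cancel (S₀.f * z * S₀.f) (a • S₀.f)]
      refine W.add_mem (hJW1 ha) (W.smul_mem _ ?_)
      have := hpowW 0
      rwa [pow_zero, one_mul] at this
    obtain ⟨c, hc⟩ := (Submodule.mem_span_range_iff_exists_fun k).1 hW
    refine ⟨fun i => if h : i < m + 1 then c ⟨i, h⟩ else 0, ?_⟩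
    rw [← hc, Finset.sum_range]
    exact Finset.sum_congr rfl fun i _ => by beta_reduce; rw [dif_pos i.2]
  let ι := inc (k := k) C
  refine ⟨{
    C := C, n := S₀.n, m := m, f := ι e, f0 := ι S₀.f, y := ι y', u := fun i => ι (S₀.u i)
    v := fun i => ι (S₀.v i)
    sf := supp_inc _, sf0 := supp_inc _, sy := supp_inc _
    su := fun i => supp_inc _, sv := fun i => supp_inc _
    idem := by rw [← map_mul, S₀.idem]
    fidem := by rw [← map_mul, hei]
    ff0 := by rw [← map_mul, S₀.ef]
    f0f := by rw [← map_mul, S₀.fe]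
    fu := fun i => by rw [← map_mul, S₀.eu]
    uf0 := fun i => by rw [← map_mul, S₀.uf]
    f0v := fun i => by rw [← map_mul, S₀.fv]
    vf := fun i => by rw [← map_mul, S₀.ve]
    unit := fun i j => by rw [← map_mul, S₀.unit, apply_ite ι, map_zero]
    sum_eq := by simp only [← map_mul, ← map_sum, S₀.sum_eq]
    fcen := fun x hx => by
      obtain ⟨a, rfl⟩ := exists_inc hx
      rw [← map_mul, ← map_mul, (hec a).eq]
    ycen := fun x hx => by
      obtain ⟨a, rfl⟩ := exists_inc hx
      rw [← map_mul, ← map_mul, hycen]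
    yf := by rw [← map_mul, hye]
    poly := fun x hx => by
      obtain ⟨a, rfl⟩ := exists_inc hx
      obtain ⟨c, hc⟩ := hpoly a
      refine ⟨c, ?_⟩
      rw [← map_mul, ← map_mul, hc, map_sum]
      simp only [map_smul, map_mul, map_pow]

    ynil := by rw [← map_pow, hm1, map_zero]
    ytop := by
      rw [← map_pow, ← map_mul]
      exact fun h => hmtop ((map_eq_zero_iff ι (inc_injective C)).1 h) }, rfl, rfl⟩


end CfsgLib.Blocks.CyclicRank
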