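import Cfsg.Agent.Blocks.CyclicRankOne.OneGen
import Cfsg.Agent.Blocks.PairAlg.Basic

/-!
# Local data of a block with cyclic defect group, and operators on modules

The data are the matrix units of the block of the centralizer, a central generator of its radical and an element
of the inertial group acting on the annihilator of that generator with order the inertial index.
-/

set_option autoImplicit false
set_option linter.unusedSectionVars false
set_option linter.style.haveILetI false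

namespace CfsgLib.Blocks.CyclicRank

open CfsgLib.Blocks.CyclicRankOne CfsgLib.PairAlg

variable {k : Type} [Field k] {G : Type*} [Group G] [Fintype G]

theorem cj_eq (g : G) (a : MonoidAlgebra k G) : cj g a = el g * a * el g⁻¹ := by
  refine MonoidAlgebra.ext (Finsupp.ext fun x => ?_)
  rw [coeff_cj, MonoidAlgebra.coeff_mul_single_apply, inv_inv, MonoidAlgebra.coeff_single_mul_apply, one_mul, mul_one,
    mul_assoc]

theorem el_mul_cj (g : G) (a : MonoidAlgebra k G) : el g * a = cj g a * el g := by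
  rw [cj_eq, mul_assoc, el_mul, inv_mul_cancel, el_one, mul_one]

theorem supp_el {S : Subgroup G} {g : G} (hg : g ∈ S) : Supp S (el g : MonoidAlgebra k G) := fun x hx => by
  classical
  by_contra h
  exact hx (by rw [MonoidAlgebra.coeff_single, Finsupp.single_apply, if_neg (fun e : g = x => h (by rw [← e]; exact hg))])

/-- The local data. -/
structure Loc (k : Type) [Field k] (G : Type*) [Group G] [Fintype G] where
  C : Subgroup G
  T : Subgroup G
  n : ℕ
  m : ℕ
  e : ℕ
  t : G
  f : MonoidAlgebra k G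
  f0 : MonoidAlgebra k G
  y : MonoidAlgebra k G
  α : MonoidAlgebra k G
  u : Fin n → MonoidAlgebra k G
  v : Fin n → MonoidAlgebra k G
  sf : Supp C f
  sf0 : Supp C f0
  sy : Supp C y
  sα : Supp C α
  su : ∀ i, Supp C (u i)
  sv : ∀ i, Supp C (v i)
  idem : f0 * f0 = f0
  fidem : f * f = f
  ff0 : f * f0 = f0
  f0f : f0 * f = f0
  fu : ∀ i, f * u i = u i
  uf0 : ∀ i, u i * f0 = u i
  f0v : ∀ i, f0 * v i = v i
  vf : ∀ i, v i * f = v i
  sum_eq : ∑ i, u i * v i = f
  fcen : ∀ x, Supp C x → f * x = x * f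
  ycen : ∀ x, Supp C x → y * x = x * y
  yf : y * f = y
  poly : ∀ x, Supp C x → ∃ c : ℕ → k, f0 * x * f0 = ∑ i ∈ Finset.range (m + 1), c i • (y ^ i * f0)
  ynil : y ^ (m + 1) = 0
  ytop : y ^ m * f0 ≠ 0
  CT : C ≤ T
  tT : t ∈ T
  tnorm : ∀ c, c ∈ C ↔ t * c * t⁻¹ ∈ C
  cover : ∀ τ ∈ T, ∃ i, i < e ∧ ∃ c ∈ C, τ = t ^ i * c
  powC : ∀ i, t ^ i ∈ C ↔ e ∣ i
  e0 : (e : k) ≠ 0
  tf : el t * f = f * el t
  ty : ∃ z, el t * y = z * y * el t ∧ Supp C z
  ty' : ∃ z, el t⁻¹ * y = z * y * el t⁻¹ ∧ Supp C z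
  bcomm : ∀ x, Supp C x → ∃ r, (α * el t * x - x * (α * el t)) * f = r * y
  bpow : ∃ r, (α * el t) ^ e * f - f = r * y

namespace Loc

variable (S : Loc k G)

/-- The acting element. -/
noncomputable def b : MonoidAlgebra k G := S.α * el S.t

theorem e_pos : 0 < S.e := Nat.pos_of_ne_zero fun h => S.e0 (by rw [h, Nat.cast_zero])

theorem y_mul_f0 : S.y * S.f0 = S.f0 * S.y := S.ycen _ S.sf0

theorem supp_pow {x : MonoidAlgebra k G} (hx : Supp S.C x) (i : ℕ) : Supp S.C (x ^ i) := by
  classical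
  induction i with
  | zero => rw [pow_zero, ← el_one]; exact supp_el S.C.one_mem
  | succ i ih => rw [pow_succ]; exact ih.mul hx

theorem ypow_cen (i : ℕ) {x : MonoidAlgebra k G} (hx : Supp S.C x) : S.y ^ i * x = x * S.y ^ i :=
  ((show Commute S.y x from S.ycen x hx).pow_left i).eq

/-- A corner element annihilated by the generator is a multiple of the top power. -/
theorem eq_top_of_kill {x : MonoidAlgebra k G} (hx : Supp S.C x) (h : S.y * (S.f0 * x * S.f0) = 0) :
    ∃ c : k, S.f0 * x * S.f0 = c • (S.y ^ S.m * S.f0) := by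
  obtain ⟨c, hc⟩ := S.poly x hx
  rw [hc, Finset.mul_sum] at h
  have hz : ∀ i, i < S.m → c i = 0 := by
    intro i
    induction i using Nat.strong_induction_on with
    | _ i ih =>
      intro hi
      have h1 := congrArg (fun a => S.y ^ (S.m - i - 1) * a) h
      simp only [Finset.mul_sum, mul_smul_comm, ← mul_assoc, ← pow_succ, ← pow_add, mul_zero] at h1
      rw [Finset.sum_eq_single i] at h1
      · rw [show S.m - i - 1 + 1 + i = S.m by omega] at h1
        exact (smul_eq_zero.1 h1).resolve_right S.ytop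
      · intro j _ hji
        rcases lt_or_gt_of_ne hji with hlt | hgt
        · rw [ih j hlt (by omega), zero_smul]
        · rw [show S.m - i - 1 + 1 + j = (S.m + 1) + (j - i - 1) by omega, pow_add, S.ynil, zero_mul, zero_mul,
            smul_zero]
      · intro h2; exact absurd (Finset.mem_range.2 (by omega)) h2
  refine ⟨c S.m, hc.trans (Finset.sum_eq_single S.m (fun j hj hne => ?_) fun h2 => ?_)⟩
  · rw [hz j (by have := Finset.mem_range.1 hj; omega), zero_smul]
  · exact absurd (Finset.mem_range.2 (Nat.lt_succ_self _)) h2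

/-- An element of the centralizer algebra of the block annihilated by the generator lies in the top power. -/
theorem mem_top_of_kill {x : MonoidAlgebra k G} (hx : Supp S.C x) (hf : S.f * x = x) (h : S.y * x = 0) :
    ∃ r, x = S.y ^ S.m * r := by
  classical
  have hcen := S.fcen x hx
  have hxe : x = ∑ i, ∑ j, S.u i * (S.f0 * (S.v i * x * S.u j) * S.f0) * S.v j := by
    have h1 : ∀ i j, S.f0 * (S.v i * x * S.u j) * S.f0 = S.v i * x * S.u j := fun i j => by
      rw [mul_assoc S.f0, mul_assoc (S.v i * x), S.uf0, ← mul_assoc, ← mul_assoc, S.f0v]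
    simp only [h1]
    calc x = S.f * x * S.f := by rw [hf, ← hcen, hf]
      _ = (∑ i, S.u i * S.v i) * x * ∑ j, S.u j * S.v j := by rw [S.sum_eq]
      _ = _ := by
        simp only [Finset.sum_mul, Finset.mul_sum, mul_assoc]
        exact Finset.sum_comm
  have hkill : ∀ i j, ∃ c : k, S.f0 * (S.v i * x * S.u j) * S.f0 = c • (S.y ^ S.m * S.f0) := fun i j => by
    refine S.eq_top_of_kill (((S.sv i).mul hx).mul (S.su j)) ?_
    rw [← mul_assoc, ← mul_assoc, ← mul_assoc, ← mul_assoc, S.y_mul_f0, mul_assoc S.f0 S.y, S.ycen _ (S.sv i),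
      mul_assoc S.f0, mul_assoc (S.v i) S.y, h, mul_zero, mul_zero, zero_mul, zero_mul]
  choose c hc using hkill
  refine ⟨∑ i, ∑ j, c i j • (S.u i * S.f0 * S.v j), ?_⟩
  conv_lhs => rw [hxe]
  simp only [hc, Finset.mul_sum, mul_smul_comm, smul_mul_assoc]
  refine Finset.sum_congr rfl fun i _ => Finset.sum_congr rfl fun j _ => ?_
  rw [← mul_assoc, ← mul_assoc (S.y ^ S.m), ← mul_assoc (S.y ^ S.m), S.ypow_cen _ (S.su i), mul_assoc (S.u i)]

section Module

variable {U V : Type*} [AddCommGroup U] [Module k U] [Module (MonoidAlgebra k G) U]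
  [IsScalarTower k (MonoidAlgebra k G) U]
  [AddCommGroup V] [Module k V] [Module (MonoidAlgebra k G) V] [IsScalarTower k (MonoidAlgebra k G) V]

theorem smul_el_inv (g : G) (w : U) : (el g : MonoidAlgebra k G) • (el g⁻¹ : MonoidAlgebra k G) • w = w := by
  rw [smul_smul, el_mul, mul_inv_cancel, el_one, one_smul]

theorem inv_smul_el (g : G) (w : U) : (el g⁻¹ : MonoidAlgebra k G) • (el g : MonoidAlgebra k G) • w = w := by
  rw [smul_smul, el_mul, inv_mul_cancel, el_one, one_smul]

/-- Commuting with the centralizer algebra. -/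
def Lin (h : U →ₗ[k] V) : Prop :=
  ∀ x : MonoidAlgebra k G, Supp S.C x → ∀ w, h (x • w) = x • h w

/-- The annihilator of the generator in the block part. -/
def Ker (w : U) : Prop := S.f • w = w ∧ S.y • w = 0

/-- Lying in the top power. -/
def Top (w : U) : Prop := ∃ r : U, w = S.y ^ S.m • r

/-- Eigenvectors in the corner of the annihilator. -/
def Eig (ζ : k) (w : U) : Prop := S.f0 • w = w ∧ S.y • w = 0 ∧ S.b • w = ζ • w

theorem ker_of_eig {ζ : k} {w : U} (h : S.Eig ζ w) : S.Ker w :=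
  ⟨by conv_lhs => rw [← h.1, smul_smul, S.ff0]
      exact h.1, h.2.1⟩

theorem ker_smul {w : U} (h : S.Ker w) {x : MonoidAlgebra k G} (hx : Supp S.C x) : S.Ker (x • w) :=
  ⟨by rw [smul_smul, S.fcen x hx, ← smul_smul, h.1], by rw [smul_smul, S.ycen x hx, ← smul_smul, h.2, smul_zero]⟩

theorem ker_el {w : U} (h : S.Ker w) : S.Ker ((el S.t : MonoidAlgebra k G) • w) := by
  refine ⟨by rw [smul_smul, ← S.tf, ← smul_smul, h.1], ?_⟩
  obtain ⟨z, hz, hzs⟩ := S.ty'
  have h1 : (el S.t⁻¹ : MonoidAlgebra k G) • (S.y • (el S.t : MonoidAlgebra k G) • w) = 0 := by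
    rw [smul_smul, hz, ← smul_smul, inv_smul_el, ← smul_smul, h.2, smul_zero]
  have h2 := congrArg (fun a => (el S.t : MonoidAlgebra k G) • a) h1
  simpa only [smul_el_inv, smul_zero] using h2

theorem ker_b {w : U} (h : S.Ker w) : S.Ker (S.b • w) := by
  rw [Loc.b, ← smul_smul]
  exact ker_smul S (ker_el S h) S.sα

theorem ker_bpow {w : U} (h : S.Ker w) (i : ℕ) : S.Ker (S.b ^ i • w) := by
  induction i with
  | zero => rwa [pow_zero, one_smul]
  | succ i ih => rw [pow_succ', ← smul_smul]; exact ker_b S ih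

theorem b_comm {w : U} (h : S.Ker w) {x : MonoidAlgebra k G} (hx : Supp S.C x) :
    S.b • x • w = x • S.b • w := by
  obtain ⟨r, hr⟩ := S.bcomm x hx
  have h1 : (r * S.y) • w = 0 := by rw [← smul_smul, h.2, smul_zero]
  rw [← hr, ← smul_smul, h.1, sub_smul, sub_eq_zero, ← smul_smul, ← smul_smul (x)] at h1
  exact h1

theorem b_pow_e {w : U} (h : S.Ker w) : S.b ^ S.e • w = w := by
  obtain ⟨r, hr⟩ := S.bpow
  have h1 : (r * S.y) • w = 0 := by rw [← smul_smul, h.2, smul_zero]
  rw [← hr, sub_smul, ← smul_smul, h.1, sub_eq_zero] at h1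
  exact h1

theorem top_smul {w : U} (h : S.Top w) {x : MonoidAlgebra k G} (hx : Supp S.C x) : S.Top (x • w) := by
  obtain ⟨r, rfl⟩ := h
  exact ⟨x • r, by rw [smul_smul, smul_smul, S.ypow_cen _ hx]⟩

theorem el_ypow (i : ℕ) (g : G) (hz : ∃ z, el g * S.y = z * S.y * el g ∧ Supp S.C z) :
    ∃ z, el g * S.y ^ i = S.y ^ i * z := by
  obtain ⟨z, hz, hzs⟩ := hz
  induction i with
  | zero => exact ⟨el g, by rw [pow_zero, one_mul, mul_one]⟩
  | succ i ih =>
    obtain ⟨z', hz'⟩ := ih
    refine ⟨z * z', ?_⟩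
    calc el g * S.y ^ (i + 1) = el g * S.y * S.y ^ i := by rw [pow_succ', mul_assoc]
      _ = z * S.y * (el g * S.y ^ i) := by rw [hz]; simp only [mul_assoc]
      _ = (z * S.y * S.y ^ i) * z' := by rw [hz']; simp only [mul_assoc]
      _ = (z * S.y ^ (i + 1)) * z' := by rw [mul_assoc z, ← pow_succ']
      _ = _ := by rw [← S.ypow_cen (i + 1) hzs, mul_assoc]

theorem b_ypow (i : ℕ) (r : U) : ∃ r' : U, S.b • (S.y ^ i • r) = S.y ^ i • r' := by
  obtain ⟨z, hz⟩ := S.el_ypow i S.t S.ty
  refine ⟨(S.α * z) • r, ?_⟩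
  rw [smul_smul, smul_smul, Loc.b, mul_assoc, hz, ← mul_assoc, ← S.ypow_cen i S.sα, mul_assoc]

/-- The map built from a linear form on the corner. -/
noncomputable def chain (j : ℕ) (μ : Module.Dual k U) (v' : V) : U →ₗ[k] V :=
  ∑ i ∈ Finset.range (j + 1), ((μ ∘ₗ Algebra.lsmul k k U (S.y ^ (j - i))).smulRight (S.y ^ i • v'))

theorem chain_apply (j : ℕ) (μ : Module.Dual k U) (v' : V) (w : U) :
    S.chain j μ v' w = ∑ i ∈ Finset.range (j + 1), μ (S.y ^ (j - i) • w) • (S.y ^ i • v') := by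
  simp only [chain, LinearMap.sum_apply, LinearMap.smulRight_apply, LinearMap.comp_apply, Algebra.lsmul_coe]

variable {j : ℕ} {μ : Module.Dual k U} {v' : V}

theorem chain_y (hμ : ∀ w, μ (S.y ^ (j + 1) • w) = 0) (hv : S.y ^ (j + 1) • v' = 0) (w : U) :
    S.chain j μ v' (S.y • w) = S.y • S.chain j μ v' w := by
  rw [chain_apply, chain_apply, Finset.smul_sum]
  simp only [smul_comm (S.y) (_ : k), smul_smul (S.y ^ _) S.y, ← pow_succ, smul_smul S.y, ← pow_succ']
  rw [Finset.sum_range_succ', Finset.sum_range_succ (fun i => μ (S.y ^ (j - i) • w) • (S.y ^ (i + 1) • v'))]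
  rw [Nat.sub_zero, hμ, zero_smul, hv, smul_zero, add_zero, add_zero]
  refine Finset.sum_congr rfl fun i hi => ?_
  rw [show j - (i + 1) + 1 = j - i by have := Finset.mem_range.1 hi; omega]

theorem chain_ker (w : U) (hw : S.y • w = 0) : S.chain j μ v' w = μ w • (S.y ^ j • v') := by
  rw [chain_apply, Finset.sum_eq_single j]
  · rw [Nat.sub_self, pow_zero, one_smul]
  · intro i hi hne
    have := Finset.mem_range.1 hi
    rw [show j - i = (j - i - 1) + 1 by omega, pow_succ, ← smul_smul, hw, smul_zero, map_zero, zero_smul]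
  · intro h; exact absurd (Finset.mem_range.2 (Nat.lt_succ_self _)) h

theorem chain_corner (hμ : ∀ w, μ (S.y ^ (j + 1) • w) = 0) (hv : S.y ^ (j + 1) • v' = 0) (hv0 : S.f0 • v' = v')
    {x : MonoidAlgebra k G} (hx : Supp S.C x) (w : U) (hw : S.f0 • w = w) :
    S.chain j μ v' ((S.f0 * x * S.f0) • w) = (S.f0 * x * S.f0) • S.chain j μ v' w := by
  have hF : S.f0 • S.chain j μ v' w = S.chain j μ v' w := by
    rw [chain_apply, Finset.smul_sum]
    refine Finset.sum_congr rfl fun i _ => ?_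
    rw [smul_comm, smul_smul, ← S.ypow_cen i S.sf0, ← smul_smul, hv0]
  have hpow : ∀ (i : ℕ) (w : U), S.chain j μ v' (S.y ^ i • w) = S.y ^ i • S.chain j μ v' w := by
    intro i
    induction i with
    | zero => intro w; rw [pow_zero, one_smul, one_smul]
    | succ i ih => intro w; rw [pow_succ', ← smul_smul, S.chain_y hμ hv, ih, smul_smul]
  obtain ⟨c, hc⟩ := S.poly x hx
  rw [hc, Finset.sum_smul, map_sum, Finset.sum_smul]
  exact Finset.sum_congr rfl fun i _ => by
    rw [smul_assoc, map_smul, ← smul_smul, hw, hpow, smul_assoc, ← smul_smul, hF]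

/-- The module map built from a linear form on the corner. -/
noncomputable def lift (F : U →ₗ[k] V) : U →ₗ[k] V :=
  ∑ l, Algebra.lsmul k k V (S.u l) ∘ₗ F ∘ₗ Algebra.lsmul k k U (S.v l)

theorem lift_apply (F : U →ₗ[k] V) (w : U) : S.lift F w = ∑ l, S.u l • F (S.v l • w) := by
  simp [lift, LinearMap.sum_apply]

theorem lift_lin {F : U →ₗ[k] V}
    (hF : ∀ x, Supp S.C x → ∀ w : U, S.f0 • w = w → F ((S.f0 * x * S.f0) • w) = (S.f0 * x * S.f0) • F w) :
    S.Lin (S.lift F) := by
  intro x hx w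
  have hcor : ∀ l q, S.f0 * (S.v l * x * S.u q) * S.f0 = S.v l * x * S.u q := fun l q => by
    rw [mul_assoc S.f0, mul_assoc (S.v l * x), S.uf0, ← mul_assoc, ← mul_assoc, S.f0v]
  have h1 : ∀ l, S.v l • x • w = ∑ q, (S.v l * x * S.u q) • (S.v q • w) := fun l => by
    rw [show ∑ q, (S.v l * x * S.u q) • (S.v q • w) = (S.v l * x * S.f) • w by
        rw [← S.sum_eq, Finset.mul_sum, Finset.sum_smul]
        exact Finset.sum_congr rfl fun q _ => by rw [smul_smul, mul_assoc (S.v l * x)],
      mul_assoc, ← S.fcen x hx, ← mul_assoc, S.vf, smul_smul]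
  have h2 : ∀ q, x * S.u q = ∑ l, S.u l * (S.v l * x * S.u q) := fun q => by
    calc x * S.u q = S.f * (x * S.u q) := by rw [← mul_assoc, S.fcen x hx, mul_assoc, S.fu]
      _ = _ := by
        rw [← S.sum_eq, Finset.sum_mul]
        simp only [mul_assoc]
  rw [lift_apply, lift_apply, Finset.smul_sum]
  conv_lhs => arg 2; ext l; rw [h1, map_sum, Finset.smul_sum]
  rw [Finset.sum_comm]
  refine Finset.sum_congr rfl fun q _ => ?_
  rw [smul_smul, h2, Finset.sum_smul]
  refine Finset.sum_congr rfl fun l _ => ?_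
  have hq : S.f0 • S.v q • w = S.v q • w := by rw [smul_smul, S.f0v]
  have h3 := hF _ (((S.sv l).mul hx).mul (S.su q)) _ hq
  rw [hcor] at h3
  rw [h3, smul_smul]

theorem lift_f (F : U →ₗ[k] V) (w : U) : S.f • S.lift F w = S.lift F w := by
  rw [lift_apply, Finset.smul_sum]
  exact Finset.sum_congr rfl fun l _ => by rw [smul_smul, S.fu]

theorem lift_f_arg (F : U →ₗ[k] V) (w : U) : S.lift F (S.f • w) = S.lift F w := by
  rw [lift_apply, lift_apply]
  exact Finset.sum_congr rfl fun l _ => by rw [smul_smul, S.vf]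

theorem lift_corner {F : U →ₗ[k] V}
    (hF : ∀ x, Supp S.C x → ∀ w : U, S.f0 • w = w → F ((S.f0 * x * S.f0) • w) = (S.f0 * x * S.f0) • F w)
    {w : U} (hw : S.f0 • w = w) (hFw : S.f0 • F w = F w) : S.lift F w = F w := by
  rw [lift_apply]
  have h1 : ∀ l, S.f0 * S.v l * S.f0 = S.v l * S.f0 := fun l => by rw [S.f0v]
  have h2 : ∀ l, F (S.v l • w) = S.v l • F w := fun l => by
    have := hF _ (S.sv l) w hw
    rw [h1, ← smul_smul, hw, ← smul_smul, hFw] at this
    exact this
  simp only [h2, smul_smul]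
  rw [← Finset.sum_smul, S.sum_eq, ← hFw, smul_smul, S.ff0]

end Module

end Loc

end CfsgLib.Blocks.CyclicRank
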