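import Cfsg.Agent.Blocks.CyclicRank.Trace

/-!
# Labels of the simple modules of a block with cyclic defect group
-/

set_option autoImplicit false
set_option linter.unusedSectionVars false
set_option linter.style.haveILetI false

namespace CfsgLib.Blocks.CyclicRank

open CfsgLib.Blocks.CyclicRankOne CfsgLib.PairAlg

variable {k : Type} [Field k] {G : Type*} [Group G] [Fintype G]

noncomputable local instance instFintypeQuotCyclicRankLabel {K : Type*} [Group K] [Finite K] (L : Subgroup K) :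
    Fintype (K ⧸ L) := Fintype.ofFinite _

/-- The position of the local data in the group and in the block. -/
structure Glob (S : Loc k G) (p : ℕ) where
  D : Subgroup G
  N : Subgroup G
  z : G
  w : MonoidAlgebra k G
  eB : MonoidAlgebra k G
  hz : orderOf z = p
  DC : D ≤ S.C
  TN : S.T ≤ N
  zD : z ∈ D
  sw : Supp S.C w
  fw : S.f * w = w
  wD : ∀ d ∈ D, el d * w = w * el d
  wsum : ∑ r : S.T ⧸ D.subgroupOf S.T, el (r.out : G) * w * el (r.out : G)⁻¹ = S.f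
  free : ∀ (c d τ : G), d ∈ S.T → τ ∈ S.T → τ ≠ 1 → c⁻¹ * τ * c ∈ D → d⁻¹ * τ * d ∈ D → c ∈ N
  orth : ∀ c ∈ N, c ∉ S.T → S.f * el c * S.f = 0
  fT : ∀ τ ∈ S.T, el τ * S.f = S.f * el τ
  hC : ∀ x, x ∈ S.C ↔ x * z = z * x
  hN : ∀ g ∈ N, g * z * g⁻¹ ∈ Subgroup.zpowers z
  inN : ∀ g : G, g⁻¹ * z * g ∈ D → g ∈ N
  conjC : ∀ g ∈ N, ∀ c ∈ S.C, g * c * g⁻¹ ∈ S.C
  zy : ∃ r, (el z - 1) * S.f = r * S.y
  central : ∀ x, eB * x = x * eB
  eBidem : eB * eB = eB
  feB : S.f * cut S.C eB = S.f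
  scal : ∀ x, (∀ a, x * a = a * x) → ∃ c : k, IsNilpotent (eB * x - c • eB)

variable {S : Loc k G} {p : ℕ}

theorem Glob.supp_conj (Gl : Glob S p) {g : G} (hg : g ∈ Gl.N) {x : MonoidAlgebra k G} (hx : Supp S.C x) :
    Supp S.C (cj g x) := fun c hc => by
  rw [coeff_cj] at hc
  have := Gl.conjC g hg _ (hx _ hc)
  simpa [mul_assoc] using this

section Module

variable {U V : Type*} [AddCommGroup U] [Module k U] [Module (MonoidAlgebra k G) U]
  [IsScalarTower k (MonoidAlgebra k G) U]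
  [AddCommGroup V] [Module k V] [Module (MonoidAlgebra k G) V] [IsScalarTower k (MonoidAlgebra k G) V]

theorem top_add {a b : U} (ha : S.Top a) (hb : S.Top b) : S.Top (a + b) := by
  obtain ⟨r, rfl⟩ := ha
  obtain ⟨q, rfl⟩ := hb
  exact ⟨r + q, (smul_add _ _ _).symm⟩

theorem top_sub {a b : U} (ha : S.Top a) (hb : S.Top b) : S.Top (a - b) := by
  obtain ⟨r, rfl⟩ := ha
  obtain ⟨q, rfl⟩ := hb
  exact ⟨r - q, (smul_sub _ _ _).symm⟩

theorem top_ksmul (c : k) {a : U} (ha : S.Top a) : S.Top (c • a) := by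
  obtain ⟨r, rfl⟩ := ha
  exact ⟨c • r, smul_comm _ _ _⟩

theorem top_zero : S.Top (0 : U) := ⟨0, (smul_zero _).symm⟩

theorem top_sum {ι : Type*} (s : Finset ι) (a : ι → U) (h : ∀ i ∈ s, S.Top (a i)) : S.Top (∑ i ∈ s, a i) :=
  Finset.sum_induction _ _ (fun _ _ => top_add) top_zero h

theorem top_b {a : U} (ha : S.Top a) : S.Top (S.b • a) := by
  obtain ⟨r, rfl⟩ := ha
  exact S.b_ypow S.m r

theorem ker_of_f0 {w : U} (h0 : S.f0 • w = w) (hy : S.y • w = 0) : S.Ker w :=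
  ⟨by conv_lhs => rw [← h0, smul_smul, S.ff0]
      exact h0, hy⟩

theorem f0_bpow {w : U} (h0 : S.f0 • w = w) (hy : S.y • w = 0) (i : ℕ) :
    S.f0 • S.b ^ i • w = S.b ^ i • w := by
  have h := ker_of_f0 h0 hy
  induction i with
  | zero => rw [pow_zero, one_smul, h0]
  | succ i ih => rw [pow_succ', ← smul_smul, ← S.b_comm (S.ker_bpow h i) S.sf0, ih]

theorem bpow_ypow (i j : ℕ) (r : U) : ∃ r' : U, S.b ^ i • (S.y ^ j • r) = S.y ^ j • r' := by
  induction i with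
  | zero => exact ⟨r, by rw [pow_zero, one_smul]⟩
  | succ i ih =>
    obtain ⟨r', hr'⟩ := ih
    rw [pow_succ', ← smul_smul, hr']
    exact S.b_ypow j r'

theorem eig_bpow {ζ : k} {s : U} (h : S.Eig ζ s) (i : ℕ) : S.b ^ i • s = ζ ^ i • s := by
  induction i with
  | zero => rw [pow_zero, pow_zero, one_smul, one_smul]
  | succ i ih => rw [pow_succ, ← smul_smul, h.2.2, smul_comm, ih, smul_smul, pow_succ']

theorem eig_root {ζ : k} {s : U} (h : S.Eig ζ s) (hs : s ≠ 0) : ζ ^ S.e = 1 := by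
  have h1 := eig_bpow h S.e
  rw [S.b_pow_e (S.ker_of_eig h)] at h1
  have h2 : (ζ ^ S.e - 1) • s = 0 := by rw [sub_smul, one_smul, ← h1, sub_self]
  exact sub_eq_zero.1 ((smul_eq_zero.1 h2).resolve_right hs)

/-- The powers of the acting element split off a power of the group element. -/
theorem Glob.bpow_el (Gl : Glob S p) (i : ℕ) :
    ∃ a, Supp S.C a ∧ S.b ^ i = a * el (S.t ^ i) := by
  induction i with
  | zero => exact ⟨1, supp_one _, by rw [pow_zero, pow_zero, el_one, one_mul]⟩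
  | succ i ih =>
    obtain ⟨a, ha, hab⟩ := ih
    refine ⟨S.α * cj S.t a, S.sα.mul (Gl.supp_conj (Gl.TN S.tT) ha), ?_⟩
    rw [pow_succ', hab, Loc.b, pow_succ' S.t, ← el_mul, ← mul_assoc, mul_assoc S.α, el_mul_cj]
    simp only [mul_assoc]

theorem conjMap_lin (Gl : Glob S p) {g : G} (hg : g ∈ Gl.N) {H : U →ₗ[k] V} (hH : S.Lin H) :
    S.Lin (conjMap g H) := fun x hx w => by
  rw [conjMap_apply, conjMap_apply, smul_smul, el_mul_cj, ← smul_smul,
    hH _ (Gl.supp_conj (Gl.N.inv_mem hg) hx), smul_smul, el_mul_cj, cj_cj_inv, ← smul_smul]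

/-- The map between modules built from two eigenvectors with the same eigenvalue. -/
theorem exists_map (Gl : Glob S p) [FiniteDimensional k V] {ζ : k} {s : U} {s' : V} (hs : S.Eig ζ s)
    (hs' : S.Eig ζ s') (j : ℕ) (μ : Module.Dual k U) (hμ : ∀ w, μ (S.y ^ (j + 1) • w) = 0) (hμs : μ s = 1)
    (v' : V) (hv0 : S.f0 • v' = v') (hv : S.y ^ (j + 1) • v' = 0) (hvs : S.y ^ j • v' = s') :
    ∃ (Y : U →ₗ[MonoidAlgebra k G] V) (l : U → k), l s = 1 ∧
      ∀ x, S.f0 • x = x → S.y • x = 0 → S.Top (Y x - l x • s') := by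
  classical
  have hζ : ζ ^ S.e = 1 := eig_root hs fun h => one_ne_zero (hμs.symm.trans (by rw [h, map_zero]))
  set H : U →ₗ[k] V := S.lift (S.chain j μ v')
  have hcor : ∀ x, Supp S.C x → ∀ w : U, S.f0 • w = w →
      S.chain j μ v' ((S.f0 * x * S.f0) • w) = (S.f0 * x * S.f0) • S.chain j μ v' w :=
    fun x hx w hw => S.chain_corner hμ hv hv0 hx w hw
  have hHlin : S.Lin H := S.lift_lin hcor
  have hHK : ∀ x, S.f0 • x = x → S.y • x = 0 → H x = μ x • s' := fun x h0 hy => by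
    rw [show H x = S.chain j μ v' x from S.lift_corner hcor h0 ?_, S.chain_ker x hy, hvs]
    rw [S.chain_ker x hy, hvs, smul_comm, hs'.1]
  let Hi : ℕ → U →ₗ[k] V := fun i => conjMap (S.t ^ i) H
  have hN : ∀ i : ℕ, S.t ^ i ∈ Gl.N := fun i => Gl.N.pow_mem (Gl.TN S.tT) i
  have hfi : ∀ (i : ℕ) (x : U), S.f • Hi i x = Hi i x := fun i x => by
    show S.f • conjMap (S.t ^ i) H x = conjMap (S.t ^ i) H x
    rw [conjMap_apply, smul_smul, ← Gl.fT _ (S.T.pow_mem S.tT i), ← smul_smul, S.lift_f]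
  have hstep : ∀ (i : ℕ) (x : U), Hi (i + 1) ((el S.t : MonoidAlgebra k G) • x) =
      (el S.t : MonoidAlgebra k G) • Hi i x := fun i x => by
    simp only [Hi, conjMap_apply, smul_smul, el_mul]
    rw [pow_succ', mul_inv_rev, inv_mul_cancel_right]
  have hend : Hi S.e = Hi 0 := LinearMap.ext fun x => by
    have hc : S.t ^ S.e ∈ S.C := (S.powC _).2 dvd_rfl
    simp only [Hi, pow_zero, conjMap_one, conjMap_apply]
    rw [← hHlin _ (supp_el hc), Loc.smul_el_inv]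
  let R : U →ₗ[k] V := (S.e : k)⁻¹ • ∑ i ∈ Finset.range S.e, Hi i
  have hRapp : ∀ x, R x = (S.e : k)⁻¹ • ∑ i ∈ Finset.range S.e, Hi i x := fun x => by
    simp [R, LinearMap.sum_apply]
  have hRlin : S.Lin R := fun x hx w => by
    simp only [hRapp, Finset.smul_sum]
    exact Finset.sum_congr rfl fun i _ => by rw [conjMap_lin Gl (hN i) hHlin x hx w, smul_comm]
  have hRt : ∀ x, R ((el S.t : MonoidAlgebra k G) • x) = (el S.t : MonoidAlgebra k G) • R x := fun x => by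
    simp only [hRapp]
    rw [smul_comm (el S.t : MonoidAlgebra k G), Finset.smul_sum (r := (el S.t : MonoidAlgebra k G))]
    congr 1
    simp only [← hstep]
    have h1 := Finset.sum_range_succ (fun i => Hi i ((el S.t : MonoidAlgebra k G) • x)) S.e
    rw [Finset.sum_range_succ', hend] at h1
    exact (add_right_cancel h1).symm
  have hRti : ∀ (i : ℕ) x, R ((el (S.t ^ i) : MonoidAlgebra k G) • x) =
      (el (S.t ^ i) : MonoidAlgebra k G) • R x := by
    intro i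
    induction i with
    | zero => intro x; rw [pow_zero, el_one, one_smul, one_smul]
    | succ i ih => intro x; rw [pow_succ', ← el_mul, ← smul_smul, hRt, ih, smul_smul]
  have hRT : ∀ τ ∈ S.T, ∀ x, R ((el τ : MonoidAlgebra k G) • x) = (el τ : MonoidAlgebra k G) • R x := by
    intro τ hτ x
    obtain ⟨i, -, c, hc, rfl⟩ := S.cover τ hτ
    rw [← el_mul, ← smul_smul, hRti, hRlin _ (supp_el hc), smul_smul]
  have hRl : ∀ x, S.f • R x = R x := fun x => by
    simp only [hRapp]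
    rw [smul_comm, Finset.smul_sum]
    simp only [hfi]
  have hRr : ∀ x, R (S.f • x) = R x := fun x => by rw [hRlin _ S.sf, hRl]
  obtain ⟨Y, h, hY⟩ := S.exists_hom Gl.D (Gl.DC.trans S.CT) Gl.N Gl.TN Gl.w Gl.wD Gl.wsum Gl.free Gl.orth
    Gl.fT R hRT hRl hRr
  refine ⟨Y, fun x => (S.e : k)⁻¹ * ∑ i ∈ Finset.range S.e, ζ ^ i * μ (S.b ^ (S.e - i) • x), ?_, ?_⟩
  · show (S.e : k)⁻¹ * _ = 1
    rw [Finset.sum_congr rfl fun i hi => ?_, Finset.sum_const, Finset.card_range, nsmul_eq_mul, mul_one,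
      inv_mul_cancel₀ S.e0]
    rw [eig_bpow hs, map_smul, hμs, smul_eq_mul, mul_one, ← pow_add,
      Nat.add_sub_cancel' (Finset.mem_range.1 hi).le, hζ]
  · intro x h0 hy
    have hK := ker_of_f0 h0 hy
    have hYx : Y x = R x + Loc.tr S.T h x := by
      have h1 := hY x
      rw [hK.1, ← map_smul, hK.1] at h1
      exact h1
    have hRx : R x = ((S.e : k)⁻¹ * ∑ i ∈ Finset.range S.e, ζ ^ i * μ (S.b ^ (S.e - i) • x)) • s' := by
      rw [hRapp, mul_smul, Finset.sum_smul]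
      congr 1
      refine Finset.sum_congr rfl fun i hi => ?_
      set x' := S.b ^ (S.e - i) • x
      have hx' : x = S.b ^ i • x' := by
        rw [smul_smul, ← pow_add, Nat.add_sub_cancel' (Finset.mem_range.1 hi).le, S.b_pow_e hK]
      obtain ⟨a, ha, hab⟩ := Gl.bpow_el i
      have hkey : Hi i (S.b ^ i • x') = S.b ^ i • H x' := by
        rw [hab, ← smul_smul, ← smul_smul, conjMap_lin Gl (hN i) hHlin a ha]
        simp only [Hi, conjMap_apply, Loc.inv_smul_el]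
      conv_lhs => rw [hx', hkey, hHK x' (f0_bpow h0 hy _) (S.ker_bpow hK _).2, smul_comm, eig_bpow hs']
      rw [smul_smul, mul_comm]
    rw [hYx, hRx, add_sub_cancel_left]
    exact S.tr_top h hK

/-- Averaging an element of the annihilator to an eigenvalue. -/
theorem exists_eig [IsAlgClosed k] {w : U} (h0 : S.f0 • w = w) (hy : S.y • w = 0) (hT : ¬ S.Top w)
    {j : ℕ} {r : U} (hr : w = S.y ^ j • r) :
    ∃ (ζ : k) (s r' : U), S.Eig ζ s ∧ ¬ S.Top s ∧ s = S.y ^ j • r' := by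
  classical
  haveI : NeZero ((S.e : ℕ) : k) := ⟨S.e0⟩
  obtain ⟨ξ, hξ⟩ := HasEnoughRootsOfUnity.exists_primitiveRoot k S.e
  have hK := ker_of_f0 h0 hy
  let P : ℕ → U := fun q => ∑ i ∈ Finset.range S.e, (ξ ^ q) ^ i • S.b ^ i • w
  have hsum : ∑ q ∈ Finset.range S.e, P q = (S.e : k) • w := by
    simp only [P]
    rw [Finset.sum_comm, Finset.sum_eq_single 0]
    · simp [Finset.sum_const, ← Nat.cast_smul_eq_nsmul k]
    · intro i hi hne
      rw [← Finset.sum_smul]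
      have h1 : ∀ q, (ξ ^ q) ^ i = (ξ ^ i) ^ q := fun q => by rw [← pow_mul, ← pow_mul, mul_comm]
      simp only [h1]
      have h2 : ξ ^ i ≠ 1 := fun h => hne (Nat.eq_zero_of_dvd_of_lt (hξ.dvd_of_pow_eq_one i h) (Finset.mem_range.1 hi))
      have h3 := geom_sum_mul (ξ ^ i) S.e
      rw [← pow_mul, mul_comm i, pow_mul, hξ.pow_eq_one, one_pow, sub_self] at h3
      rw [(mul_eq_zero.1 h3).resolve_right (sub_ne_zero.2 h2), zero_smul]
    · intro h; exact absurd (Finset.mem_range.2 S.e_pos) h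
  obtain ⟨q, -, hq⟩ : ∃ q ∈ Finset.range S.e, ¬ S.Top (P q) := by
    by_contra hne
    push Not at hne
    refine hT ?_
    have := top_ksmul (S := S) (S.e : k)⁻¹ (hsum ▸ top_sum _ _ hne)
    rwa [smul_smul, inv_mul_cancel₀ S.e0, one_smul] at this
  have hξ0 : ξ ^ q ≠ 0 := pow_ne_zero _ (hξ.ne_zero S.e_pos.ne')
  have hb : S.b • P q = (ξ ^ q)⁻¹ • P q := by
    rw [eq_inv_smul_iff₀ hξ0]
    simp only [P, Finset.smul_sum, smul_comm S.b, smul_smul S.b, ← pow_succ', smul_smul]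
    have h1 := Finset.sum_range_succ (fun i => (ξ ^ q) ^ i • S.b ^ i • w) S.e
    rw [Finset.sum_range_succ', S.b_pow_e hK, ← pow_mul ξ q S.e, mul_comm q, pow_mul, hξ.pow_eq_one, one_pow,
      pow_zero, pow_zero] at h1
    simp only [one_smul] at h1
    exact add_right_cancel h1
  choose g hg using fun i => bpow_ypow (S := S) i j r
  refine ⟨(ξ ^ q)⁻¹, P q, ∑ i ∈ Finset.range S.e, (ξ ^ q) ^ i • g i, ⟨?_, ?_, hb⟩, hq, ?_⟩
  · simp only [P, Finset.smul_sum]
    exact Finset.sum_congr rfl fun i _ => by rw [smul_comm, f0_bpow h0 hy]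
  · simp only [P, Finset.smul_sum]
    exact Finset.sum_eq_zero fun i _ => by rw [smul_comm, (S.ker_bpow hK i).2, smul_zero]
  · simp only [P, Finset.smul_sum]
    exact Finset.sum_congr rfl fun i _ => by rw [smul_comm (S.y ^ j), ← hg, ← hr]

/-- The module has an eigenvector outside the top power. -/
def HasLabel (S : Loc k G) (U : Type*) [AddCommGroup U] [Module k U] [Module (MonoidAlgebra k G) U] (ζ : k) : Prop :=
  ∃ s : U, S.Eig ζ s ∧ ¬ S.Top s

/-- The eigenvector at maximal depth. -/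
theorem exists_deep [IsAlgClosed k] (h : ∃ w : U, S.f0 • w = w ∧ S.y • w = 0 ∧ ¬ S.Top w) :
    ∃ (ζ : k) (s : U) (j : ℕ) (μ : Module.Dual k U) (v : U), S.Eig ζ s ∧ ¬ S.Top s ∧
      (∀ w, μ (S.y ^ (j + 1) • w) = 0) ∧ μ s = 1 ∧ S.f0 • v = v ∧ S.y ^ j • v = s := by
  classical
  let P : ℕ → Prop := fun j => ∃ w : U, S.f0 • w = w ∧ S.y • w = 0 ∧ ¬ S.Top w ∧ ∃ r : U, w = S.y ^ j • r
  have hP0 : P 0 := by
    obtain ⟨w, h0, hy, hT⟩ := h
    exact ⟨w, h0, hy, hT, w, by rw [pow_zero, one_smul]⟩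
  have hPm : ¬ P S.m := fun ⟨w, _, _, hT, r, hr⟩ => hT ⟨r, hr⟩
  obtain ⟨j, hj, hj1⟩ : ∃ j, P j ∧ ¬ P (j + 1) := by
    by_contra hne
    push Not at hne
    exact hPm (Nat.rec hP0 (fun i hi => hne i hi) S.m)
  obtain ⟨w, h0, hy, hT, r, hr⟩ := hj
  obtain ⟨ζ, s, r', hs, hsT, hsr⟩ := exists_eig h0 hy hT hr
  let W : Submodule k U := LinearMap.range (Algebra.lsmul k k U (S.y ^ (j + 1)))
  have hsW : s ∉ W := fun ⟨q, hq⟩ => hj1 ⟨s, hs.1, hs.2.1, hsT, q, hq.symm⟩
  obtain ⟨φ, hφ, hφW⟩ := Submodule.exists_dual_map_eq_bot_of_notMem hsW inferInstance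
  refine ⟨ζ, s, j, (φ s)⁻¹ • φ, S.f0 • r', hs, hsT, fun q => ?_, ?_, ?_, ?_⟩
  · rw [LinearMap.smul_apply,
      show φ (S.y ^ (j + 1) • q) = 0 from (Submodule.eq_bot_iff _).1 hφW _ ⟨_, ⟨q, rfl⟩, rfl⟩, smul_zero]
  · rw [LinearMap.smul_apply, smul_eq_mul, inv_mul_cancel₀ hφ]
  · rw [smul_smul, S.idem]
  · rw [smul_smul, S.ypow_cen j S.sf0, ← smul_smul, ← hsr, hs.1]

theorem exists_scalar [IsAlgClosed k] [IsSimpleModule (MonoidAlgebra k G) U] [FiniteDimensional k U]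
    (Y : U →ₗ[MonoidAlgebra k G] U) : ∃ c : k, ∀ x, Y x = c • x := by
  haveI : Nontrivial U := IsSimpleModule.nontrivial (MonoidAlgebra k G) U
  obtain ⟨c, hc⟩ := Module.End.exists_eigenvalue (Y.restrictScalars k)
  obtain ⟨x₀, hx₀⟩ := hc.exists_hasEigenvector
  let Z : U →ₗ[MonoidAlgebra k G] U :=
    { toFun := fun x => Y x - c • x
      map_add' := fun a b => by rw [map_add, smul_add]; abel
      map_smul' := fun a b => by rw [map_smul, RingHom.id_apply, smul_sub, smul_comm c] }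
  rcases LinearMap.bijective_or_eq_zero Z with hb | h0
  · exact absurd (hb.1 (show Z x₀ = Z 0 by
      rw [map_zero]; exact sub_eq_zero.2 hx₀.apply_eq_smul)) hx₀.2
  · exact ⟨c, fun x => sub_eq_zero.1 (LinearMap.congr_fun h0 x)⟩

variable [IsAlgClosed k] [IsSimpleModule (MonoidAlgebra k G) U] [FiniteDimensional k U]

/-- A simple module has at most one label, and the deepest eigenvector spans the annihilator modulo the top. -/
theorem label_unique (Gl : Glob S p) {ζ ζ' : k} (h : HasLabel S U ζ) (h' : HasLabel S U ζ') : ζ = ζ' := by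
  obtain ⟨s₁, hs₁, hT₁⟩ := h
  obtain ⟨ζ₀, s, j, μ, v, hs, hT, hμ, hμs, hv0, hvs⟩ := exists_deep ⟨s₁, hs₁.1, hs₁.2.1, hT₁⟩
  obtain ⟨Y, l, hls, hl⟩ := exists_map Gl hs hs j μ hμ hμs v hv0
    (by rw [pow_succ', ← smul_smul, hvs, hs.2.1]) hvs
  obtain ⟨c, hc⟩ := exists_scalar Y
  have hc1 : c = 1 := by
    by_contra hne
    refine hT ?_
    have h1 := hl s hs.1 hs.2.1
    rw [hc, hls, ← sub_smul] at h1
    have := top_ksmul (S := S) (c - 1)⁻¹ h1
    rwa [smul_smul, inv_mul_cancel₀ (sub_ne_zero.2 hne), one_smul] at this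
  have key : ∀ η s', S.Eig η s' → ¬ S.Top s' → η = ζ₀ := fun η s' hs' hT' => by
    have h1 := hl s' hs'.1 hs'.2.1
    rw [hc, hc1, one_smul] at h1
    have h2 := top_b h1
    rw [smul_sub, smul_comm, hs'.2.2, hs.2.2] at h2
    have h3 := top_sub h2 (top_ksmul η h1)
    by_contra hne
    have h4 : (η - ζ₀) • (l s' • s) = η • (l s' • s) - ζ₀ • (l s' • s) := sub_smul _ _ _
    rw [show η • s' - l s' • ζ₀ • s - η • (s' - l s' • s) = (η - ζ₀) • (l s' • s) by
      rw [h4, smul_sub, smul_comm (l s') ζ₀]; abel] at h3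
    have h5 := top_ksmul (S := S) (η - ζ₀)⁻¹ h3
    rw [smul_smul, inv_mul_cancel₀ (sub_ne_zero.2 hne), one_smul] at h5
    exact hT' (by simpa using top_add h1 h5)
  obtain ⟨s₂, hs₂, hT₂⟩ := h'
  rw [key ζ s₁ hs₁ hT₁, key ζ' s₂ hs₂ hT₂]

/-- Two simple modules with the same label are isomorphic. -/
theorem equiv_of_label (Gl : Glob S p) [IsSimpleModule (MonoidAlgebra k G) V] [FiniteDimensional k V] {ζ : k}
    (h : HasLabel S U ζ) (h' : HasLabel S V ζ) : Nonempty (U ≃ₗ[MonoidAlgebra k G] V) := by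
  obtain ⟨s₁, hs₁, hT₁⟩ := h
  obtain ⟨s₂, hs₂, hT₂⟩ := h'
  obtain ⟨ζ₀, s, j, μ, v, hs, hT, hμ, hμs, hv0, hvs⟩ := exists_deep ⟨s₁, hs₁.1, hs₁.2.1, hT₁⟩
  obtain ⟨ζ₀', s', j', μ', v', hs', hT', hμ', hμs', hv0', hvs'⟩ := exists_deep ⟨s₂, hs₂.1, hs₂.2.1, hT₂⟩
  have e1 : ζ₀ = ζ := label_unique Gl ⟨s, hs, hT⟩ ⟨s₁, hs₁, hT₁⟩
  have e2 : ζ₀' = ζ := label_unique Gl ⟨s', hs', hT'⟩ ⟨s₂, hs₂, hT₂⟩
  subst e1
  rw [e2] at hs'
  rcases le_total j j' with hle | hle
  · obtain ⟨Y, l, hls, hl⟩ := exists_map Gl hs hs' j μ hμ hμs (S.y ^ (j' - j) • v')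
      (by rw [smul_smul, ← S.ypow_cen _ S.sf0, ← smul_smul, hv0'])
      (by rw [smul_smul, ← pow_add, show j + 1 + (j' - j) = 1 + j' by omega, pow_add, pow_one, ← smul_smul, hvs',
        hs'.2.1])
      (by rw [smul_smul, ← pow_add, Nat.add_sub_cancel' hle, hvs'])
    rcases LinearMap.bijective_or_eq_zero Y with hb | h0
    · exact ⟨LinearEquiv.ofBijective Y hb⟩
    · refine absurd ?_ hT'
      have h1 := hl s hs.1 hs.2.1
      rw [hls, h0, LinearMap.zero_apply, one_smul, zero_sub] at h1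
      simpa using top_ksmul (-1 : k) h1
  · obtain ⟨Y, l, hls, hl⟩ := exists_map Gl hs' hs j' μ' hμ' hμs' (S.y ^ (j - j') • v)
      (by rw [smul_smul, ← S.ypow_cen _ S.sf0, ← smul_smul, hv0])
      (by rw [smul_smul, ← pow_add, show j' + 1 + (j - j') = 1 + j by omega, pow_add, pow_one, ← smul_smul, hvs,
        hs.2.1])
      (by rw [smul_smul, ← pow_add, Nat.add_sub_cancel' hle, hvs])
    rcases LinearMap.bijective_or_eq_zero Y with hb | h0
    · exact ⟨(LinearEquiv.ofBijective Y hb).symm⟩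
    · refine absurd ?_ hT
      have h1 := hl s' hs'.1 hs'.2.1
      rw [hls, h0, LinearMap.zero_apply, one_smul, zero_sub] at h1
      simpa using top_ksmul (-1 : k) h1

end Module

end CfsgLib.Blocks.CyclicRank
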