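import Cfsg.Agent.Blocks.CyclicRank.Label

/-!
# Every label occurs

An eigenvector of the corner, cut by the block idempotent, generates a left ideal. If none of its simple quotients
had the label, this left ideal would be generated by an idempotent, which the truncation to the inertial group forbids.
-/

set_option autoImplicit false
set_option linter.unusedSectionVars false
set_option linter.style.haveILetI false

namespace CfsgLib.Blocks.CyclicRank

open CfsgLib.Blocks.CyclicRankOne CfsgLib.PairAlg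

variable {k : Type} [Field k] {G : Type*} [Group G] [Fintype G]

noncomputable local instance instFintypeQuotCyclicRankLower {K : Type*} [Group K] [Finite K] (L : Subgroup K) :
    Fintype (K ⧸ L) := Fintype.ofFinite _

noncomputable local instance instFintypeSubgroupCyclicRankLower (K : Subgroup G) : Fintype K := Fintype.ofFinite K

theorem cut_mul_left {T : Subgroup G} {u : MonoidAlgebra k G} (hu : Supp T u) (d : MonoidAlgebra k G) :
    cut T (u * d) = u * cut T d := by
  classical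
  ext g
  rw [coeff_cut, CfsgLib.PairAlg.coeff_mul_eq, CfsgLib.PairAlg.coeff_mul_eq]
  split_ifs with hg
  · refine Finset.sum_congr rfl fun h _ => ?_
    by_cases hh : u.coeff h = 0
    · rw [hh, zero_mul, zero_mul]
    · rw [coeff_cut_of_mem _ (T.mul_mem (T.inv_mem (hu h hh)) hg)]
  · refine (Finset.sum_eq_zero fun h _ => ?_).symm
    by_cases hh : u.coeff h = 0
    · rw [hh, zero_mul]
    · rw [coeff_cut_of_notMem _ fun h1 => hg (by simpa using T.mul_mem (hu h hh) h1), mul_zero]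

theorem cut_mul_right {T : Subgroup G} {v : MonoidAlgebra k G} (hv : Supp T v) (d : MonoidAlgebra k G) :
    cut T (d * v) = cut T d * v := by
  classical
  ext g
  rw [coeff_cut, CfsgLib.PairAlg.coeff_mul_eq, CfsgLib.PairAlg.coeff_mul_eq]
  split_ifs with hg
  · refine Finset.sum_congr rfl fun h _ => ?_
    by_cases hh : v.coeff (h⁻¹ * g) = 0
    · rw [hh, mul_zero, mul_zero]
    · rw [coeff_cut_of_mem _ (by simpa using T.mul_mem hg (T.inv_mem (hv _ hh)))]
  · refine (Finset.sum_eq_zero fun h _ => ?_).symm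
    by_cases hh : v.coeff (h⁻¹ * g) = 0
    · rw [hh, mul_zero]
    · rw [coeff_cut_of_notMem _ fun h1 => hg (by simpa using T.mul_mem h1 (hv _ hh)), zero_mul]

variable {S : Loc k G} {p : ℕ}

theorem Glob.supp_b (Gl : Glob S p) : Supp S.T S.b :=
  (S.sα.mono S.CT).mul (supp_el S.tT)

theorem Glob.zC (Gl : Glob S p) : Gl.z ∈ S.C := (Gl.hC _).2 rfl

theorem Glob.C_of_comm [Fact p.Prime] (Gl : Glob S p) {g x : G} (hg : g ∈ Subgroup.zpowers Gl.z) (hg1 : g ≠ 1)
    (hx : x * g = g * x) : x ∈ S.C := by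
  have hcard : Nat.card (Subgroup.zpowers Gl.z) = p := by rw [Nat.card_zpowers, Gl.hz]
  have h1 := mem_zpowers_of_prime_card hcard (g := (⟨g, hg⟩ : Subgroup.zpowers Gl.z))
    (g' := ⟨Gl.z, Subgroup.mem_zpowers _⟩) (fun h => hg1 (congrArg Subtype.val h))
  obtain ⟨n, hn⟩ := h1
  have hn' : g ^ n = Gl.z := by simpa using congrArg Subtype.val hn
  exact (Gl.hC x).2 (by rw [← hn']; exact ((show Commute x g from hx).zpow_right n).eq)

/-- The sum over the subgroup of order `p`. -/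
noncomputable def Glob.σ (Gl : Glob S p) : MonoidAlgebra k G := ∑ h : Subgroup.zpowers Gl.z, el (h : G)

theorem Glob.supp_σ (Gl : Glob S p) : Supp S.C Gl.σ :=
  supp_sum _ _ fun h _ => supp_el (Subgroup.zpowers_le.2 Gl.zC h.2)

theorem Glob.σ_sq [Fact p.Prime] [CharP k p] (Gl : Glob S p) : Gl.σ * Gl.σ = 0 := by
  have h1 : ∀ h : Subgroup.zpowers Gl.z, el (h : G) * Gl.σ = Gl.σ := fun h => by
    rw [Glob.σ, Finset.mul_sum]
    refine (Fintype.sum_equiv (Equiv.mulLeft h) _ _ fun g => ?_)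
    rw [el_mul]; rfl
  conv_lhs => arg 1; rw [Glob.σ]
  rw [Finset.sum_mul, Finset.sum_congr rfl fun h _ => h1 h, Finset.sum_const, Finset.card_univ,
    ← Nat.card_eq_fintype_card, Nat.card_zpowers, Gl.hz, ← Nat.cast_smul_eq_nsmul k, CharP.cast_eq_zero, zero_smul]

theorem Glob.σ_el (Gl : Glob S p) {τ : G} (hτ : τ ∈ S.T) : el τ * Gl.σ = Gl.σ * el τ := by
  have hnorm : ∀ g ∈ S.T, ∀ h ∈ Subgroup.zpowers Gl.z, g * h * g⁻¹ ∈ Subgroup.zpowers Gl.z := by
    intro g hg h hh
    obtain ⟨n, rfl⟩ := hh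
    rw [show g * Gl.z ^ n * g⁻¹ = (g * Gl.z * g⁻¹) ^ n by rw [conj_zpow]]
    exact Subgroup.zpow_mem _ (Gl.hN g (Gl.TN hg)) n
  rw [Glob.σ, Finset.mul_sum, Finset.sum_mul]
  let ε : Subgroup.zpowers Gl.z ≃ Subgroup.zpowers Gl.z :=
    { toFun := fun h => ⟨τ * (h : G) * τ⁻¹, hnorm τ hτ _ h.2⟩
      invFun := fun h => ⟨τ⁻¹ * (h : G) * τ, by simpa using hnorm τ⁻¹ (S.T.inv_mem hτ) _ h.2⟩
      left_inv := fun h => Subtype.ext (by simp [mul_assoc])
      right_inv := fun h => Subtype.ext (by simp [mul_assoc]) }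
  refine Fintype.sum_equiv ε _ _ fun h => ?_
  simp only [ε]
  rw [el_mul, el_mul, Equiv.coe_fn_mk]
  simp [mul_assoc]

theorem Glob.σ_comm (Gl : Glob S p) {a : MonoidAlgebra k G} (ha : Supp S.T a) : a * Gl.σ = Gl.σ * a := by
  rw [← TwoChar.sum_single' a, Finset.sum_mul, Finset.mul_sum]
  refine Finset.sum_congr rfl fun g _ => ?_
  by_cases hg : a.coeff g = 0
  · rw [hg, MonoidAlgebra.single_zero, zero_mul, mul_zero]
  · rw [show MonoidAlgebra.single g (a.coeff g) = a.coeff g • (el g : MonoidAlgebra k G) by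
      rw [MonoidAlgebra.smul_single, smul_eq_mul, mul_one], smul_mul_assoc, mul_smul_comm, Gl.σ_el (ha g hg)]

theorem Glob.exists_σ (Gl : Glob S p) {s : MonoidAlgebra k G} (h : el Gl.z * s = s) :
    ∃ m, s = Gl.σ * m := by
  classical
  have hco : ∀ x, s.coeff (Gl.z * x) = s.coeff x := fun x => by
    conv_lhs => rw [← h]
    rw [MonoidAlgebra.coeff_single_mul_apply, inv_mul_cancel_left, one_mul]
  have hco' : ∀ g ∈ Subgroup.zpowers Gl.z, ∀ x, s.coeff (g * x) = s.coeff x := by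
    intro g hg
    rw [← mem_powers_iff_mem_zpowers] at hg
    obtain ⟨n, rfl⟩ := hg
    induction n with
    | zero => intro x; simp
    | succ n ih =>
      intro x
      simp only [pow_succ', mul_assoc] at ih ⊢
      rw [hco, ih]
  obtain ⟨m, hm⟩ := exists_sum_free (H := Subgroup.zpowers Gl.z) (X := G)
    (fun g => AddMonoidHom.mulLeft (el (g : G) : MonoidAlgebra k G)) (fun x => MonoidAlgebra.single x (s.coeff x))
    (fun g x => by
      show MonoidAlgebra.single ((g : G) * x) (s.coeff ((g : G) * x)) = el (g : G) * MonoidAlgebra.single x (s.coeff x)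
      rw [hco' _ g.2, MonoidAlgebra.single_mul_single, one_mul])
    (fun g x hx => Subtype.ext (mul_eq_right.1 (show (g : G) * x = x from hx)))
  refine ⟨m, ?_⟩
  rw [TwoChar.sum_single'] at hm
  rw [hm, Glob.σ, Finset.sum_mul]
  rfl

theorem Glob.fix_z (Gl : Glob S p) {w : MonoidAlgebra k G} (hw : S.Ker w) : el Gl.z * w = w := by
  obtain ⟨r, hr⟩ := Gl.zy
  have h1 : (r * S.y) • w = 0 := by rw [← smul_smul, hw.2, smul_zero]
  rw [← hr, ← smul_smul, hw.1, sub_smul, one_smul, sub_eq_zero, smul_eq_mul] at h1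
  exact h1

/-- The projection of the annihilator on an eigenvalue. -/
theorem eig_proj {U : Type*} [AddCommGroup U] [Module k U] [Module (MonoidAlgebra k G) U]
    [IsScalarTower k (MonoidAlgebra k G) U] {c : k} (hc : c ^ S.e = 1) {w : U} (h0 : S.f0 • w = w)
    (hy : S.y • w = 0) : S.Eig c⁻¹ (∑ i ∈ Finset.range S.e, c ^ i • S.b ^ i • w) := by
  have hK := ker_of_f0 h0 hy
  have hc0 : c ≠ 0 := fun h => by rw [h, zero_pow S.e_pos.ne'] at hc; exact zero_ne_one hc
  refine ⟨?_, ?_, ?_⟩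
  · rw [Finset.smul_sum]
    exact Finset.sum_congr rfl fun i _ => by rw [smul_comm, f0_bpow h0 hy]
  · rw [Finset.smul_sum]
    exact Finset.sum_eq_zero fun i _ => by rw [smul_comm, (S.ker_bpow hK i).2, smul_zero]
  · rw [eq_inv_smul_iff₀ hc0]
    simp only [Finset.smul_sum, smul_comm S.b, smul_smul S.b, ← pow_succ', smul_smul]
    have h1 := Finset.sum_range_succ (fun i => c ^ i • S.b ^ i • w) S.e
    rw [Finset.sum_range_succ', S.b_pow_e hK, hc, pow_zero, pow_zero] at h1
    simp only [one_smul] at h1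
    exact add_right_cancel h1

/-- Every root of unity of order dividing the index labels some simple module of the block. -/
theorem exists_label (Gl : Glob S p) [Fact p.Prime] [CharP k p] {ζ : k} (hζ : ζ ^ S.e = 1) :
    ∃ (V : Submodule (MonoidAlgebra k G) (MonoidAlgebra k G)) (M : Submodule (MonoidAlgebra k G) V),
      IsCoatom M ∧ (∀ u : V ⧸ M, Gl.eB • u = u) ∧ HasLabel S (V ⧸ M) ζ := by
  classical
  by_contra hno
  push Not at hno
  set x₀ : MonoidAlgebra k G := S.y ^ S.m * S.f0 with hx₀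
  have hx0f : S.f0 • x₀ = x₀ := by
    rw [smul_eq_mul, hx₀, ← mul_assoc, ← S.ypow_cen _ S.sf0, mul_assoc, S.idem]
  have hx0y : S.y • x₀ = 0 := by rw [smul_eq_mul, hx₀, ← mul_assoc, ← pow_succ', S.ynil, zero_mul]
  have hx0C : Supp S.C x₀ := (S.supp_pow S.sy _).mul S.sf0
  have hζ0 : ζ ≠ 0 := fun h => by rw [h, zero_pow S.e_pos.ne'] at hζ; exact zero_ne_one hζ
  set c := ζ⁻¹ with hc
  have hce : c ^ S.e = 1 := by rw [hc, inv_pow, hζ, inv_one]
  set s : MonoidAlgebra k G := ∑ i ∈ Finset.range S.e, c ^ i • S.b ^ i • x₀ with hs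
  have hsE : S.Eig ζ s := by
    have := eig_proj (S := S) hce hx0f hx0y
    rwa [hc, inv_inv] at this
  set x := Gl.eB * s with hx
  let V : Submodule (MonoidAlgebra k G) (MonoidAlgebra k G) := Submodule.span _ {x}
  have hxV : x ∈ V := Submodule.mem_span_singleton_self x
  let X : V := ⟨x, hxV⟩
  have hgen : ∀ v : V, ∃ a : MonoidAlgebra k G, a • X = v := fun v => by
    obtain ⟨a, ha⟩ := Submodule.mem_span_singleton.1 v.2
    exact ⟨a, Subtype.ext ha⟩
  have heX : Gl.eB • X = X := Subtype.ext (show Gl.eB * x = x by rw [hx, ← mul_assoc, Gl.eBidem])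
  have hVe : ∀ v : V, Gl.eB • v = v := fun v => by
    obtain ⟨a, rfl⟩ := hgen v
    rw [smul_smul, Gl.central, ← smul_smul, heX]
  have hXE : S.Eig ζ X := by
    refine ⟨Subtype.ext ?_, Subtype.ext ?_, Subtype.ext ?_⟩
    · show S.f0 * x = x
      rw [hx, ← mul_assoc, ← Gl.central, mul_assoc, ← smul_eq_mul S.f0, hsE.1]
    · show S.y * x = 0
      rw [hx, ← mul_assoc, ← Gl.central, mul_assoc, ← smul_eq_mul S.y, hsE.2.1, mul_zero]
    · show S.b * x = ζ • x
      rw [hx, ← mul_assoc, ← Gl.central, mul_assoc, ← smul_eq_mul S.b, hsE.2.2, mul_smul_comm]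
  -- every map to a simple module extends to the group algebra
  have hext : ∀ M : Submodule (MonoidAlgebra k G) V, IsCoatom M →
      ∃ q : V ⧸ M, ∀ v : V, M.mkQ v = (v : MonoidAlgebra k G) • q := by
    intro M hM
    have hE : S.Eig ζ (M.mkQ X) := by
      refine ⟨by rw [← map_smul, hXE.1], by rw [← map_smul, hXE.2.1, map_zero], ?_⟩
      rw [← map_smul, hXE.2.2]
      exact LinearMap.map_smul_of_tower _ _ _
    have heU : ∀ u : V ⧸ M, Gl.eB • u = u := fun u => by
      obtain ⟨v, rfl⟩ := M.mkQ_surjective u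
      rw [← map_smul, hVe]
    have hT : S.Top (M.mkQ X) := by
      by_contra hT
      exact hno V M hM heU ⟨_, hE, hT⟩
    obtain ⟨r, hr⟩ := hT
    have h1 : M.mkQ X = x₀ • r := by
      rw [hx₀, S.ypow_cen _ S.sf0, ← smul_smul, ← hr, hE.1]
    have h2 : s • r = (S.e : k) • M.mkQ X := by
      rw [hs, Finset.sum_smul]
      have h3 : ∀ i, (c ^ i • S.b ^ i • x₀) • r = M.mkQ X := fun i => by
        rw [smul_assoc, smul_eq_mul, ← smul_smul, ← h1, eig_bpow hE, smul_smul, ← mul_pow, hc,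
          inv_mul_cancel₀ hζ0, one_pow, one_smul]
      rw [Finset.sum_congr rfl fun i _ => h3 i, Finset.sum_const, Finset.card_range, ← Nat.cast_smul_eq_nsmul k]
    refine ⟨(S.e : k)⁻¹ • r, fun v => ?_⟩
    obtain ⟨a, rfl⟩ := hgen v
    show M.mkQ (a • X) = (a * x) • _
    rw [map_smul, ← smul_smul, hx, ← smul_smul, smul_comm s, h2, inv_smul_smul₀ S.e0, heU]
  -- the left ideal is generated by an idempotent
  haveI : IsArtinian (MonoidAlgebra k G) V := isArtinian_of_tower k inferInstance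
  haveI : IsNoetherian (MonoidAlgebra k G) V := isNoetherian_of_tower k inferInstance
  obtain ⟨N, ⟨r, hr⟩, hmin⟩ := (wellFounded_lt (α := Submodule (MonoidAlgebra k G) V)).has_min
    {N | ∃ r : V, ∀ v : V, (v : MonoidAlgebra k G) • r - v ∈ N} ⟨⊤, 0, fun _ => Submodule.mem_top⟩
  have hNle : ∀ M : Submodule (MonoidAlgebra k G) V, IsCoatom M → N ≤ M := by
    intro M hM
    by_contra hle
    obtain ⟨q, hq⟩ := hext M hM
    obtain ⟨q', rfl⟩ := M.mkQ_surjective q
    have htop : N ⊔ M = ⊤ := hM.2 _ (right_lt_sup.2 hle)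
    obtain ⟨n, hn, m, hm, hnm⟩ := Submodule.mem_sup.1 (show q' - r ∈ N ⊔ M by rw [htop]; trivial)
    refine hmin (N ⊓ M) ⟨r + n, fun v => ⟨?_, ?_⟩⟩ (inf_lt_left.2 hle)
    · rw [smul_add, add_sub_right_comm]
      exact N.add_mem (hr v) (N.smul_mem _ hn)
    · rw [SetLike.mem_coe, ← Submodule.Quotient.mk_eq_zero, ← Submodule.mkQ_apply, map_sub, map_smul, hq v,
        ← smul_sub, ← map_sub, show r + n - q' = -m by linear_combination (norm := abel) hnm,
        map_neg, Submodule.mkQ_apply, (Submodule.Quotient.mk_eq_zero M).2 hm, neg_zero, smul_zero]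
  let φ : V →ₗ[MonoidAlgebra k G] V :=
    { toFun := fun v => (v : MonoidAlgebra k G) • r
      map_add' := fun a b => by rw [Submodule.coe_add, add_smul]
      map_smul' := fun a b => by rw [RingHom.id_apply, Submodule.coe_smul, smul_eq_mul, mul_smul] }
  have hsurj : Function.Surjective φ := by
    rw [← LinearMap.range_eq_top]
    refine (eq_top_or_exists_le_coatom _).resolve_right ?_
    rintro ⟨M, hM, hle⟩
    refine hM.1 (eq_top_iff.2 fun v _ => ?_)
    have := M.sub_mem (hle ⟨v, rfl⟩) (hNle M hM (hr v))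
    simpa [φ] using this
  haveI : FiniteDimensional k V := inferInstanceAs (FiniteDimensional k (V.restrictScalars k))
  have hinj : Function.Injective φ :=
    (LinearMap.injective_iff_surjective (f := φ.restrictScalars k)).2 hsurj
  obtain ⟨η, hη⟩ := hsurj r
  have hXη : (x : MonoidAlgebra k G) • η = X := hinj (by rw [map_smul, hη]; rfl)
  obtain ⟨a, ha⟩ := hgen η
  have hxax : x * (a * x) = x := by
    have := congrArg Subtype.val hXη
    rw [← ha] at this
    exact this
  -- truncation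
  have hsK := S.ker_of_eig hsE
  have hsT : Supp S.T s := supp_sum _ _ fun i _ => by
    refine Supp.smul _ ?_
    obtain ⟨d, hd, hdb⟩ := Gl.bpow_el i
    rw [smul_eq_mul, hdb]
    exact ((hd.mono S.CT).mul (supp_el (S.T.pow_mem S.tT i))).mul (hx0C.mono S.CT)
  obtain ⟨m, hm⟩ := Gl.exists_σ (Gl.fix_z hsK)
  have hsσ : s = Gl.σ * cut S.T m := by
    rw [← cut_mul_left (Gl.supp_σ.mono S.CT), ← hm, cut_eq_self hsT]
  have hcut0 : cut S.T x = 0 := by
    rw [← hxax, hx, show Gl.eB * s * (a * (Gl.eB * s)) = s * (Gl.eB * a * Gl.eB) * s by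
      rw [Gl.central s]; simp only [mul_assoc]; rw [← Gl.central s],
      cut_mul_right hsT, cut_mul_left hsT, hsσ]
    have h4 : Gl.σ * cut S.T m * cut S.T (Gl.eB * a * Gl.eB) * (Gl.σ * cut S.T m) =
        Gl.σ * Gl.σ * (cut S.T m * cut S.T (Gl.eB * a * Gl.eB) * cut S.T m) := by
      rw [mul_assoc Gl.σ (cut S.T m), mul_assoc Gl.σ, ← mul_assoc (cut S.T m * _) Gl.σ,
        Gl.σ_comm ((supp_cut _ _).mul (supp_cut _ _))]
      simp only [mul_assoc]
    rw [h4, Gl.σ_sq, zero_mul]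
  have hpart : ∀ i < S.e, i ≠ 0 → cut S.C (Gl.eB * (S.b ^ i * x₀)) = 0 := by
    intro i hi hne
    obtain ⟨d, hd, hdb⟩ := Gl.bpow_el i
    have hτC : S.t ^ i ∉ S.C := fun h => hne (Nat.eq_zero_of_dvd_of_lt ((S.powC i).1 h) hi)
    set q := d * cj (S.t ^ i) x₀ with hqdef
    have hq : S.b ^ i * x₀ = q * el (S.t ^ i) := by rw [hdb, hqdef, mul_assoc, el_mul_cj, ← mul_assoc]
    have hqC : Supp S.C q := hd.mul (Gl.supp_conj (Gl.N.pow_mem (Gl.TN S.tT) i) hx0C)
    have hqz : el Gl.z * q = q := by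
      have h5 : el Gl.z * (S.b ^ i * x₀) = S.b ^ i * x₀ :=
        Gl.fix_z (S.ker_bpow (ker_of_f0 hx0f hx0y) i)
      rw [hq] at h5
      have h6 := congrArg (· * (el (S.t ^ i)⁻¹ : MonoidAlgebra k G)) h5
      simpa only [mul_assoc, el_mul, mul_inv_cancel, el_one, mul_one] using h6
    obtain ⟨m', hm'⟩ := Gl.exists_σ hqz
    have hqσ : q = Gl.σ * cut S.C m' := by rw [← cut_mul_left Gl.supp_σ, ← hm', cut_eq_self hqC]
    rw [hq, hqσ]
    have hd0 : ∀ g ∈ S.T, g ∉ S.C → (Gl.eB * Gl.σ).coeff g = 0 := by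
      intro g hgT hgC
      have hclass : ∀ u g, Gl.eB.coeff (u * g * u⁻¹) = Gl.eB.coeff g := fun u g => by
        have h7 := congrArg (fun b => MonoidAlgebra.coeff b (g * u⁻¹)) (Gl.central (el u⁻¹))
        rw [MonoidAlgebra.coeff_mul_single_apply, MonoidAlgebra.coeff_single_mul_apply, inv_inv, mul_one,
          one_mul, inv_mul_cancel_right] at h7
        rw [mul_assoc u]; exact h7.symm
      let ψ : Subgroup.zpowers Gl.z → Subgroup.zpowers Gl.z := fun h =>
        ⟨g⁻¹ * h * g * (h : G)⁻¹, by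
          refine Subgroup.mul_mem _ ?_ (Subgroup.inv_mem _ h.2)
          obtain ⟨n, hn⟩ := h.2
          rw [← hn]
          show g⁻¹ * Gl.z ^ n * g ∈ _
          have h8 : g⁻¹ * Gl.z ^ n * g = (g⁻¹ * Gl.z * g⁻¹⁻¹) ^ n := by rw [conj_zpow, inv_inv]
          rw [h8]
          exact Subgroup.zpow_mem _ (Gl.hN _ (Gl.N.inv_mem (Gl.TN hgT))) n⟩
      have hψ : Function.Bijective ψ := by
        refine Finite.injective_iff_bijective.1 fun h₁ h₂ he => ?_
        by_contra hne'
        refine hgC (Gl.C_of_comm (g := (h₂ : G)⁻¹ * h₁) (Subgroup.mul_mem _ (Subgroup.inv_mem _ h₂.2) h₁.2)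
          (fun h => hne' (Subtype.ext (inv_mul_eq_one.1 h).symm)) ?_)
        have he' : g⁻¹ * (h₁ : G) * g * (h₁ : G)⁻¹ = g⁻¹ * (h₂ : G) * g * (h₂ : G)⁻¹ := congrArg Subtype.val he
        have h9 : g⁻¹ * (h₂ : G)⁻¹ * h₁ * g = (h₂ : G)⁻¹ * h₁ := by
          have := congrArg (fun t => g⁻¹ * (h₂ : G)⁻¹ * g * t * (h₁ : G)) he'
          simpa [mul_assoc] using this
        calc g * ((h₂ : G)⁻¹ * h₁) = g * (g⁻¹ * (h₂ : G)⁻¹ * h₁ * g) := by rw [h9]
          _ = (h₂ : G)⁻¹ * h₁ * g := by simp [mul_assoc]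
      have hcoef : ∀ h : Subgroup.zpowers Gl.z, (Gl.eB * el (h : G)).coeff g = Gl.eB.coeff g := fun h => by
        rw [MonoidAlgebra.coeff_mul_single_apply, mul_one]
        obtain ⟨u, hu⟩ := hψ.2 (h⁻¹)
        have hu' : g⁻¹ * (u : G) * g * (u : G)⁻¹ = (h : G)⁻¹ := congrArg Subtype.val hu
        rw [show g * (h : G)⁻¹ = (u : G) * g * (u : G)⁻¹ by rw [← hu']; simp [mul_assoc], hclass]
      rw [Glob.σ, Finset.mul_sum, MonoidAlgebra.coeff_sum, Finset.sum_apply', Finset.sum_congr rfl fun h _ => hcoef h,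
        Finset.sum_const, Finset.card_univ, ← Nat.card_eq_fintype_card, Nat.card_zpowers, Gl.hz,
        ← Nat.cast_smul_eq_nsmul k, CharP.cast_eq_zero, zero_smul]
    rw [mul_assoc Gl.σ, ← mul_assoc Gl.eB]
    ext g
    rw [coeff_cut]
    split_ifs with hg
    · rw [CfsgLib.PairAlg.coeff_mul_eq]
      refine Finset.sum_eq_zero fun h _ => ?_
      by_contra hne'
      have h10 := right_ne_zero_of_mul hne'
      rw [MonoidAlgebra.coeff_mul_single_apply, mul_one] at h10
      have h11 : h⁻¹ * g * (S.t ^ i)⁻¹ ∈ S.C := supp_cut _ _ _ h10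
      have h12 : h⁻¹ = h⁻¹ * g * (S.t ^ i)⁻¹ * S.t ^ i * g⁻¹ := by simp [mul_assoc]
      have hhT : h ∈ S.T := by
        rw [← S.T.inv_mem_iff, h12]
        exact S.T.mul_mem (S.T.mul_mem (S.CT h11) (S.T.pow_mem S.tT i)) (S.CT (S.C.inv_mem hg))
      refine left_ne_zero_of_mul hne' (hd0 h hhT fun hhC => hτC ?_)
      have h13 : S.t ^ i = (h⁻¹ * g * (S.t ^ i)⁻¹)⁻¹ * (h⁻¹ * g) := by simp [mul_assoc]
      rw [h13]
      exact S.C.mul_mem (S.C.inv_mem h11) (S.C.mul_mem (S.C.inv_mem hhC) hg)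
    · rfl
  have hC0 : cut S.C x = x₀ := by
    rw [hx, hs, Finset.mul_sum, map_sum, Finset.sum_eq_single 0]
    · rw [pow_zero, pow_zero, one_smul, one_smul, cut_mul_right hx0C]
      have hfx : S.f * x₀ = x₀ := (ker_of_f0 hx0f hx0y).1
      conv_lhs => rw [← hfx, ← mul_assoc, ← S.fcen _ (supp_cut _ _), Gl.feB]
      exact hfx
    · intro i hi hne
      rw [mul_smul_comm, map_smul, smul_eq_mul, hpart i (Finset.mem_range.1 hi) hne, smul_zero]
    · intro h; exact absurd (Finset.mem_range.2 S.e_pos) h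
  refine S.ytop ?_
  rw [← hx₀, ← hC0, ← cut_cut_of_le S.CT, hcut0, map_zero]

end CfsgLib.Blocks.CyclicRank
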