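import Cfsg.Agent.Blocks.CyclicRank.Data

/-!
# Construction of the local data from a corner with one-generated radical
-/

set_option autoImplicit false
set_option linter.unusedSectionVars false
set_option linter.style.haveILetI false

namespace CfsgLib.Blocks.CyclicRank

open CfsgLib.Blocks.CyclicRankOne CfsgLib.PairAlg

variable {k : Type} [Field k] {G : Type*} [Group G] [Fintype G]

/-- Matrix units over a corner generated by a central nilpotent element. -/
structure Cor (k : Type) [Field k] (G : Type*) [Group G] [Fintype G] where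
  C : Subgroup G
  n : ℕ
  m : ℕ
  f : MonoidAlgebra k G
  f0 : MonoidAlgebra k G
  y : MonoidAlgebra k G
  u : Fin n → MonoidAlgebra k G
  v : Fin n → MonoidAlgebra k G
  sf : Supp C f
  sf0 : Supp C f0
  sy : Supp C y
  su : ∀ i, Supp C (u i)
  sv : ∀ i, Supp C (v i)
  idem : f0 * f0 = f0
  fidem : f * f = f
  ff0 : f * f0 = f0
  f0f : f0 * f = f0
  fu : ∀ i, f * u i = u i
  uf0 : ∀ i, u i * f0 = u i
  f0v : ∀ i, f0 * v i = v i
  vf : ∀ i, v i * f = v i
  unit : ∀ i j, v i * u j = if i = j then f0 else 0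
  sum_eq : ∑ i, u i * v i = f
  fcen : ∀ x, Supp C x → f * x = x * f
  ycen : ∀ x, Supp C x → y * x = x * y
  yf : y * f = y
  poly : ∀ x, Supp C x → ∃ c : ℕ → k, f0 * x * f0 = ∑ i ∈ Finset.range (m + 1), c i • (y ^ i * f0)
  ynil : y ^ (m + 1) = 0
  ytop : y ^ m * f0 ≠ 0

namespace Cor

variable (P : Cor k G)

/-- Being divisible by the generator in the block part. -/
def Neg (x : MonoidAlgebra k G) : Prop := ∃ r, x * P.f = r * P.y

theorem neg_zero' : P.Neg 0 := ⟨0, by rw [zero_mul, zero_mul]⟩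

theorem neg_add' {a b : MonoidAlgebra k G} (ha : P.Neg a) (hb : P.Neg b) : P.Neg (a + b) := by
  obtain ⟨r, hr⟩ := ha
  obtain ⟨q, hq⟩ := hb
  exact ⟨r + q, by rw [add_mul, add_mul, hr, hq]⟩

theorem neg_sub' {a b : MonoidAlgebra k G} (ha : P.Neg a) (hb : P.Neg b) : P.Neg (a - b) := by
  obtain ⟨r, hr⟩ := ha
  obtain ⟨q, hq⟩ := hb
  exact ⟨r - q, by rw [sub_mul, sub_mul, hr, hq]⟩

theorem neg_ksmul (c : k) {a : MonoidAlgebra k G} (ha : P.Neg a) : P.Neg (c • a) := by
  obtain ⟨r, hr⟩ := ha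
  exact ⟨c • r, by rw [smul_mul_assoc, smul_mul_assoc, hr]⟩

theorem neg_sum {ι : Type*} (s : Finset ι) (a : ι → MonoidAlgebra k G) (h : ∀ i ∈ s, P.Neg (a i)) :
    P.Neg (∑ i ∈ s, a i) :=
  Finset.sum_induction _ _ (fun _ _ => P.neg_add') P.neg_zero' h

theorem neg_left (c : MonoidAlgebra k G) {a : MonoidAlgebra k G} (ha : P.Neg a) : P.Neg (c * a) := by
  obtain ⟨r, hr⟩ := ha
  exact ⟨c * r, by rw [mul_assoc, hr, mul_assoc]⟩

theorem neg_right {c : MonoidAlgebra k G} (hc : Supp P.C c) {a : MonoidAlgebra k G} (ha : P.Neg a) : P.Neg (a * c) := by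
  obtain ⟨r, hr⟩ := ha
  exact ⟨r * c, by rw [mul_assoc, ← P.fcen c hc, ← mul_assoc, hr, mul_assoc, P.ycen c hc, ← mul_assoc]⟩

theorem neg_y (r : MonoidAlgebra k G) : P.Neg (r * P.y) := ⟨r, by rw [mul_assoc, P.yf]⟩

theorem f0_not_neg : ¬ P.Neg P.f0 := by
  rintro ⟨r, hr⟩
  rw [P.f0f] at hr
  refine P.ytop ?_
  have hcomm : P.y ^ P.m * P.f0 = P.f0 * P.y ^ P.m :=
    ((show Commute P.y P.f0 from P.ycen _ P.sf0).pow_left _).eq
  rw [hcomm, hr, mul_assoc, ← pow_succ', P.ynil, mul_zero]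

theorem supp_ypow (i : ℕ) : Supp P.C (P.y ^ i) := by
  induction i with
  | zero => rw [pow_zero]; exact supp_one _
  | succ i ih => rw [pow_succ]; exact ih.mul P.sy

theorem corner_scalar {x : MonoidAlgebra k G} (hx : Supp P.C x) :
    ∃ c : k, P.Neg (P.f0 * x * P.f0 - c • P.f0) := by
  obtain ⟨c, hc⟩ := P.poly x hx
  refine ⟨c 0, ?_⟩
  rw [hc, Finset.sum_range_succ', pow_zero, one_mul, add_sub_cancel_right]
  refine P.neg_sum _ _ fun i _ => P.neg_ksmul _ ?_
  rw [pow_succ, mul_assoc, P.ycen _ P.sf0, ← mul_assoc]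
  exact P.neg_y _

/-- Central nilpotent elements are divisible by the generator. -/
theorem nil_central {x : MonoidAlgebra k G} (hx : Supp P.C x) (hc : ∀ a, Supp P.C a → x * a = a * x)
    (hn : IsNilpotent x) : ∃ r, Supp P.C r ∧ x * P.f = r * P.y := by
  obtain ⟨c, hc'⟩ := P.poly x hx
  have hf0x : P.f0 * x * P.f0 = x * P.f0 := by rw [← hc _ P.sf0, mul_assoc, P.idem]
  set q := ∑ i ∈ Finset.range P.m, c (i + 1) • (P.y ^ i * P.f0) with hq
  have hqs : Supp P.C q := supp_sum _ _ fun i _ => ((P.supp_ypow i).mul P.sf0).smul _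
  have hexp : x * P.f0 = q * P.y + c 0 • P.f0 := by
    rw [← hf0x, hc', Finset.sum_range_succ', pow_zero, one_mul, hq, Finset.sum_mul]
    congr 1
    refine Finset.sum_congr rfl fun i _ => ?_
    rw [smul_mul_assoc, mul_assoc, ← P.ycen _ P.sf0, ← mul_assoc, ← pow_succ]
  have hc0 : c 0 = 0 := by
    obtain ⟨N, hN⟩ := hn
    have hpow : ∀ j : ℕ, P.Neg (x ^ j * P.f0 - c 0 ^ j • P.f0) := by
      intro j
      induction j with
      | zero => rw [pow_zero, pow_zero, one_mul, one_smul, sub_self]; exact P.neg_zero'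
      | succ j ih =>
        have h1 : x ^ (j + 1) * P.f0 - c 0 ^ (j + 1) • P.f0 =
            x * (x ^ j * P.f0 - c 0 ^ j • P.f0) + c 0 ^ j • (x * P.f0 - c 0 • P.f0) := by
          rw [mul_sub, ← mul_assoc, ← pow_succ', mul_smul_comm, smul_sub, smul_smul, ← pow_succ]
          abel
        rw [h1]
        refine P.neg_add' (P.neg_left _ ih) (P.neg_ksmul _ ?_)
        rw [hexp, add_sub_cancel_right]
        exact P.neg_y _
    by_contra hne
    refine P.f0_not_neg ?_
    have h2 := P.neg_ksmul (-((c 0 ^ N)⁻¹)) (hpow N)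
    rwa [hN, zero_mul, zero_sub, smul_neg, ← neg_smul, neg_neg, smul_smul, inv_mul_cancel₀ (pow_ne_zero _ hne),
      one_smul] at h2
  rw [hc0, zero_smul, add_zero] at hexp
  refine ⟨∑ l, P.u l * q * P.v l, supp_sum _ _ fun l _ => ((P.su l).mul hqs).mul (P.sv l), ?_⟩
  rw [← P.sum_eq, Finset.mul_sum, Finset.sum_mul]
  refine Finset.sum_congr rfl fun l _ => ?_
  rw [← P.uf0 l]
  calc x * (P.u l * P.f0 * P.v l) = P.u l * (x * P.f0) * P.v l := by
        rw [← mul_assoc, ← mul_assoc, hc _ (P.su l), mul_assoc (P.u l) x]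
    _ = P.u l * q * (P.y * P.v l) := by rw [hexp]; simp only [mul_assoc]
    _ = _ := by rw [P.ycen _ (P.sv l), P.uf0, ← mul_assoc]

/-- The inertial element can be corrected by the centralizer algebra to act as a root of unity. -/
theorem exists_loc [IsAlgClosed k] (T : Subgroup G) (t : G) (e : ℕ) (hCT : P.C ≤ T) (htT : t ∈ T)
    (hnorm : ∀ c, c ∈ P.C ↔ t * c * t⁻¹ ∈ P.C) (hcover : ∀ τ ∈ T, ∃ i, i < e ∧ ∃ c ∈ P.C, τ = t ^ i * c)
    (hpow : ∀ i, t ^ i ∈ P.C ↔ e ∣ i) (he0 : (e : k) ≠ 0) (htf : el t * P.f = P.f * el t) :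
    ∃ S : Loc k G, S.C = P.C ∧ S.T = T ∧ S.e = e ∧ S.t = t ∧ S.f = P.f ∧ S.y = P.y := by
  classical
  have hθ : ∀ {g : G}, (∀ c, c ∈ P.C ↔ g * c * g⁻¹ ∈ P.C) → ∀ {x : MonoidAlgebra k G}, Supp P.C x →
      Supp P.C (cj g x) := fun {g} hg {x} hx c hc => by
    rw [coeff_cj] at hc
    have := (hg _).1 (hx _ hc)
    simpa [mul_assoc] using this
  have hnorm' : ∀ c, c ∈ P.C ↔ t⁻¹ * c * t⁻¹⁻¹ ∈ P.C := fun c => by
    rw [hnorm (t⁻¹ * c * t⁻¹⁻¹)]; simp [mul_assoc]
  have hy : ∀ g : G, (∀ c, c ∈ P.C ↔ g * c * g⁻¹ ∈ P.C) → el g * P.f = P.f * el g →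
      ∃ z, Supp P.C z ∧ el g * P.y = z * P.y * el g := by
    intro g hg hgf
    have hg' : ∀ c, c ∈ P.C ↔ g⁻¹ * c * g⁻¹⁻¹ ∈ P.C := fun c => by
      rw [hg (g⁻¹ * c * g⁻¹⁻¹)]; simp [mul_assoc]
    obtain ⟨r, hr, hrx⟩ := P.nil_central (x := cj g P.y) (hθ hg P.sy) (fun a ha => by
      conv_lhs => rw [← cj_cj_inv g a, ← map_mul, P.ycen _ (hθ hg' ha), map_mul, cj_cj_inv])
      ⟨P.m + 1, by rw [← map_pow, P.ynil, map_zero]⟩
    refine ⟨r, hr, ?_⟩
    have hcf : cj g P.f = P.f := by rw [cj_eq, hgf, mul_assoc, el_mul, mul_inv_cancel, el_one, mul_one]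
    rw [el_mul_cj, ← hrx, ← hcf, ← map_mul, P.yf]
  have htf' : el t⁻¹ * P.f = P.f * el t⁻¹ := by
    have := congrArg (fun a => el t⁻¹ * a * (el t⁻¹ : MonoidAlgebra k G)) htf.symm
    simp only [mul_assoc, el_mul, mul_inv_cancel, el_one, mul_one] at this
    rw [← mul_assoc (el t⁻¹) (el t), el_mul, inv_mul_cancel, el_one, one_mul] at this
    exact this
  obtain ⟨z, hz, hzy⟩ := hy t hnorm htf
  obtain ⟨z', hz', hzy'⟩ := hy t⁻¹ hnorm' htf'
  have hrt : ∀ {a : MonoidAlgebra k G}, P.Neg a → P.Neg (a * el t) := by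
    rintro a ⟨r, hr⟩
    have h1 : P.y * el t = el t * z' * P.y := by
      have h := congrArg (fun b => el t * b * (el t : MonoidAlgebra k G)) hzy'
      simp only [mul_assoc, el_mul, inv_mul_cancel, el_one, mul_one] at h
      rw [← mul_assoc (el t) (el t⁻¹), el_mul, mul_inv_cancel, el_one, one_mul, ← mul_assoc] at h
      exact h
    exact ⟨r * el t * z', by rw [mul_assoc, htf, ← mul_assoc, hr, mul_assoc, h1]; simp only [mul_assoc]⟩
  have hrti : ∀ {a : MonoidAlgebra k G}, P.Neg a → P.Neg (a * el t⁻¹) := by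
    rintro a ⟨r, hr⟩
    have h1 : P.y * el t⁻¹ = el t⁻¹ * z * P.y := by
      have h := congrArg (fun b => el t⁻¹ * b * (el t⁻¹ : MonoidAlgebra k G)) hzy
      simp only [mul_assoc, el_mul, mul_inv_cancel, el_one, mul_one] at h
      rw [← mul_assoc (el t⁻¹) (el t), el_mul, inv_mul_cancel, el_one, one_mul, ← mul_assoc] at h
      exact h
    exact ⟨r * el t⁻¹ * z, by rw [mul_assoc, htf', ← mul_assoc, hr, mul_assoc, h1]; simp only [mul_assoc]⟩
  have hcf : cj t P.f = P.f := by rw [cj_eq, htf, mul_assoc, el_mul, mul_inv_cancel, el_one, mul_one]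
  -- the connecting element
  obtain ⟨l, hl⟩ : ∃ l, ¬ P.Neg (P.v l * cj t P.f0) := by
    by_contra hne
    push Not at hne
    have h1 : P.Neg (cj t P.f0) := by
      have h2 : cj t P.f0 = ∑ i, P.u i * (P.v i * cj t P.f0) := by
        conv_lhs => rw [← P.ff0, map_mul, hcf, ← P.sum_eq, Finset.sum_mul]
        exact Finset.sum_congr rfl fun i _ => mul_assoc _ _ _
      rw [h2]
      exact P.neg_sum _ _ fun i _ => P.neg_left _ (hne i)
    refine P.f0_not_neg ?_
    have h3 := hrt (P.neg_left (el t⁻¹) h1)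
    rw [mul_assoc, ← el_mul_cj, ← mul_assoc, el_mul, inv_mul_cancel, el_one, one_mul] at h3
    exact h3
  set c := P.v l * cj t P.f0 with hc
  have hcs : Supp P.C c := (P.sv l).mul (hθ hnorm P.sf0)
  have hf0c : P.f0 * c = c := by rw [hc, ← mul_assoc, P.f0v]
  have hcθ : c * cj t P.f0 = c := by rw [hc, mul_assoc, ← map_mul, P.idem]
  obtain ⟨q, hq⟩ : ∃ q, ¬ P.Neg (c * P.u q) := by
    by_contra hne
    push Not at hne
    refine hl ?_
    have h2 : c = ∑ i, c * P.u i * P.v i := by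
      have h4 : c * P.f = c := by
        rw [hc, mul_assoc]
        conv_lhs => rw [← hcf, ← map_mul, P.f0f]
      conv_lhs => rw [← h4, ← P.sum_eq, Finset.mul_sum]
      exact Finset.sum_congr rfl fun i _ => (mul_assoc _ _ _).symm
    rw [h2]
    exact P.neg_sum _ _ fun i _ => P.neg_right (P.sv i) (hne i)
  have hcu : P.f0 * (c * P.u q) * P.f0 = c * P.u q := by
    rw [← mul_assoc P.f0 c, hf0c, mul_assoc, P.uf0]
  obtain ⟨γ, hγ⟩ := P.corner_scalar (hcs.mul (P.su q))
  rw [hcu] at hγ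
  have hγ0 : γ ≠ 0 := fun h => hq (by rwa [h, zero_smul, sub_zero] at hγ)
  set c' := γ⁻¹ • (cj t P.f0 * P.u q) with hc'
  have hcc' : P.Neg (c * c' - P.f0) := by
    have h1 : c * c' - P.f0 = γ⁻¹ • (c * P.u q - γ • P.f0) := by
      rw [hc', mul_smul_comm, ← mul_assoc, hcθ, smul_sub, smul_smul, inv_mul_cancel₀ hγ0, one_smul]
    rw [h1]; exact P.neg_ksmul _ hγ
  set α := ∑ i, P.u i * c * cj t (P.v i) with hα
  set α' := ∑ i, cj t (P.u i) * c' * P.v i with hα'
  have hαs : Supp P.C α := supp_sum _ _ fun i _ => ((P.su i).mul hcs).mul (hθ hnorm (P.sv i))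
  have hα's : Supp P.C α' := supp_sum _ _ fun i _ =>
    ((hθ hnorm (P.su i)).mul (((hθ hnorm P.sf0).mul (P.su q)).smul _)).mul (P.sv i)
  have hαα : P.Neg (α * α' - P.f) := by
    have h1 : α * α' = ∑ i, P.u i * (c * c') * P.v i := by
      rw [hα, hα', Finset.sum_mul]
      refine Finset.sum_congr rfl fun i _ => ?_
      rw [Finset.mul_sum, Finset.sum_eq_single i]
      · rw [show P.u i * c * cj t (P.v i) * (cj t (P.u i) * c' * P.v i) =
            P.u i * (c * cj t (P.v i * P.u i) * c') * P.v i by simp only [map_mul, mul_assoc],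
          P.unit, if_pos rfl, hcθ]
      · intro j _ hne
        rw [show P.u i * c * cj t (P.v i) * (cj t (P.u j) * c' * P.v j) =
            P.u i * (c * cj t (P.v i * P.u j) * c') * P.v j by simp only [map_mul, mul_assoc],
          P.unit, if_neg (Ne.symm hne), map_zero, mul_zero, zero_mul, mul_zero, zero_mul]
      · intro h; exact absurd (Finset.mem_univ i) h
    have h2 : α * α' - P.f = ∑ i, P.u i * (c * c' - P.f0) * P.v i := by
      rw [h1, ← P.sum_eq, ← Finset.sum_sub_distrib]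
      exact Finset.sum_congr rfl fun i _ => by rw [mul_sub, sub_mul, P.uf0]
    rw [h2]
    exact P.neg_sum _ _ fun i _ => P.neg_right (P.sv i) (P.neg_left _ hcc')
  have hyθ : ∀ {a : MonoidAlgebra k G}, P.Neg a → P.Neg (cj t a) := fun {a} ha => by
    rw [cj_eq]; exact hrti (P.neg_left _ ha)
  have hcomm : ∀ x, Supp P.C x → P.Neg (α * cj t x - x * α) := by
    intro x hx
    choose M hM using fun j i => P.corner_scalar (((P.sv j).mul hx).mul (P.su i))
    have hcor : ∀ j i, P.f0 * (P.v j * x * P.u i) * P.f0 = P.v j * x * P.u i := fun j i => by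
      rw [mul_assoc P.f0, mul_assoc (P.v j * x), P.uf0, ← mul_assoc, ← mul_assoc, P.f0v]
    simp only [hcor] at hM
    have h1 : α * cj t x * P.f = ∑ j, ∑ i, P.u j * c * cj t (P.v j * x * P.u i) * cj t (P.v i) := by
      conv_lhs => rw [hα, ← hcf, mul_assoc, ← map_mul, ← P.sum_eq, Finset.mul_sum, map_sum, Finset.sum_mul]
      refine Finset.sum_congr rfl fun j _ => ?_
      rw [Finset.mul_sum]
      exact Finset.sum_congr rfl fun i _ => by simp only [map_mul, mul_assoc]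
    have h2 : P.f * (x * α) = ∑ j, ∑ i, P.u j * (P.v j * x * P.u i) * c * cj t (P.v i) := by
      rw [hα, ← P.sum_eq, Finset.sum_mul]
      refine Finset.sum_congr rfl fun j _ => ?_
      rw [Finset.mul_sum, Finset.mul_sum]
      exact Finset.sum_congr rfl fun i _ => by simp only [mul_assoc]
    have h3 : P.Neg ((α * cj t x - x * α) * P.f) := by
      rw [sub_mul, h1, ← P.fcen _ (hx.mul hαs), h2, ← Finset.sum_sub_distrib]
      refine P.neg_sum _ _ fun j _ => ?_
      rw [← Finset.sum_sub_distrib]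
      refine P.neg_sum _ _ fun i _ => ?_
      rw [show P.u j * c * cj t (P.v j * x * P.u i) * cj t (P.v i) -
          P.u j * (P.v j * x * P.u i) * c * cj t (P.v i) =
          P.u j * (c * cj t (P.v j * x * P.u i - M j i • P.f0) - (P.v j * x * P.u i - M j i • P.f0) * c) *
            cj t (P.v i) by
        rw [map_sub, cj_smul, mul_sub c, mul_smul_comm, hcθ, sub_mul _ _ c, smul_mul_assoc, hf0c]
        simp only [mul_sub, sub_mul, mul_assoc, smul_mul_assoc, mul_smul_comm]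
        abel]
      exact P.neg_right (hθ hnorm (P.sv i))
        (P.neg_left _ (P.neg_sub' (P.neg_left _ (hyθ (hM j i))) (P.neg_right hcs (hM j i))))
    obtain ⟨r, hr⟩ := h3
    rw [mul_assoc, P.fidem] at hr
    exact ⟨r, hr⟩
  set b₀ := α * el t with hb
  set b' := el t⁻¹ * α' with hb'
  have hbcomm : ∀ x, Supp P.C x → P.Neg (b₀ * x - x * b₀) := fun x hx => by
    rw [hb, mul_assoc, el_mul_cj, ← mul_assoc, ← mul_assoc, ← sub_mul]
    exact hrt (hcomm x hx)
  have hrb : ∀ {a : MonoidAlgebra k G}, P.Neg a → P.Neg (a * b₀) := fun {a} ha => by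
    rw [hb, ← mul_assoc]; exact hrt (P.neg_right hαs ha)
  have hrb' : ∀ {a : MonoidAlgebra k G}, P.Neg a → P.Neg (a * b') := fun {a} ha => by
    rw [hb', ← mul_assoc]; exact P.neg_right hα's (hrti ha)
  have hrbi : ∀ (i : ℕ) {a : MonoidAlgebra k G}, P.Neg a → P.Neg (a * b₀ ^ i) := by
    intro i
    induction i with
    | zero => intro a ha; rwa [pow_zero, mul_one]
    | succ i ih => intro a ha; rw [pow_succ, ← mul_assoc]; exact hrb (ih ha)
  have hbicomm : ∀ (i : ℕ) x, Supp P.C x → P.Neg (b₀ ^ i * x - x * b₀ ^ i) := by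
    intro i x hx
    induction i with
    | zero => rw [pow_zero, one_mul, mul_one, sub_self]; exact P.neg_zero'
    | succ i ih =>
      have h1 : b₀ ^ (i + 1) * x - x * b₀ ^ (i + 1) =
          b₀ * (b₀ ^ i * x - x * b₀ ^ i) + (b₀ * x - x * b₀) * b₀ ^ i := by
        rw [pow_succ', mul_sub, sub_mul]; simp only [mul_assoc]; abel
      rw [h1]
      exact P.neg_add' (P.neg_left _ ih) (hrbi i (hbcomm x hx))
  have hsplit : ∀ i : ℕ, ∃ a, Supp P.C a ∧ b₀ ^ i = a * el (t ^ i) := by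
    intro i
    induction i with
    | zero => exact ⟨1, supp_one _, by rw [pow_zero, pow_zero, el_one, one_mul]⟩
    | succ i ih =>
      obtain ⟨a, ha, hab⟩ := ih
      refine ⟨α * cj t a, hαs.mul (hθ hnorm ha), ?_⟩
      rw [pow_succ', hab, hb, pow_succ' t, ← el_mul, ← mul_assoc, mul_assoc α, el_mul_cj]
      simp only [mul_assoc]
  obtain ⟨a, ha, hae⟩ := hsplit e
  have hβ : Supp P.C (b₀ ^ e) := by rw [hae]; exact ha.mul (supp_el ((hpow e).2 dvd_rfl))
  obtain ⟨κ, hκ⟩ := P.corner_scalar hβ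
  have hβf : P.Neg (b₀ ^ e - κ • P.f) := by
    have h1 : b₀ ^ e * P.f - κ • P.f = ∑ i, ((b₀ ^ e * P.u i - P.u i * b₀ ^ e) * P.f0 * P.v i +
        P.u i * (P.f0 * b₀ ^ e * P.f0 - κ • P.f0) * P.v i) := by
      rw [← P.sum_eq, Finset.mul_sum, Finset.smul_sum, ← Finset.sum_sub_distrib]
      refine Finset.sum_congr rfl fun i _ => ?_
      rw [sub_mul, sub_mul, mul_sub, sub_mul, mul_smul_comm, P.uf0, ← mul_assoc (P.u i) (P.f0 * b₀ ^ e),
        ← mul_assoc (P.u i) P.f0, P.uf0, mul_assoc (b₀ ^ e * P.u i) P.f0, P.f0v, smul_mul_assoc]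
      simp only [mul_assoc, P.f0v]
      abel
    have h2 : P.Neg (b₀ ^ e * P.f - κ • P.f) := by
      rw [h1]
      exact P.neg_sum _ _ fun i _ => P.neg_add'
        (P.neg_right (P.sv i) (P.neg_right P.sf0 (hbicomm e _ (P.su i))))
        (P.neg_right (P.sv i) (P.neg_left _ hκ))
    obtain ⟨r, hr⟩ := h2
    exact ⟨r, by rw [← hr, sub_mul, sub_mul, mul_assoc (b₀ ^ e) P.f, P.fidem]⟩
  have hbb : P.Neg (b₀ * b' - P.f) := by
    rw [hb, hb', mul_assoc, ← mul_assoc (el t), el_mul, mul_inv_cancel, el_one, one_mul]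
    exact hαα
  have hb'f : b' * P.f = P.f * b' := by
    rw [hb', mul_assoc, ← P.fcen _ hα's, ← mul_assoc, htf', mul_assoc]
  have hrbi' : ∀ (i : ℕ) {a : MonoidAlgebra k G}, P.Neg a → P.Neg (a * b' ^ i) := by
    intro i
    induction i with
    | zero => intro a ha; rwa [pow_zero, mul_one]
    | succ i ih => intro a ha; rw [pow_succ, ← mul_assoc]; exact hrb' (ih ha)
  have hpp : ∀ i : ℕ, P.Neg (b₀ ^ i * b' ^ i - P.f) := by
    intro i
    induction i with
    | zero =>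
      refine ⟨0, ?_⟩
      rw [pow_zero, pow_zero, one_mul, sub_mul, one_mul, P.fidem, sub_self, zero_mul]
    | succ i ih =>
      have h0 : P.Neg ((b₀ ^ i * b' ^ i) * (P.f - 1)) :=
        ⟨0, by rw [mul_assoc, sub_mul, one_mul, P.fidem, sub_self, mul_zero, zero_mul]⟩
      have hcomm' : P.f * b' ^ i = b' ^ i * P.f := ((show Commute P.f b' from hb'f.symm).pow_right i).eq
      have h1 : b₀ ^ (i + 1) * b' ^ (i + 1) - P.f =
          b₀ ^ i * (b₀ * b' - P.f) * b' ^ i + (b₀ ^ i * b' ^ i) * (P.f - 1) + (b₀ ^ i * b' ^ i - P.f) := by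
        rw [pow_succ, pow_succ', mul_sub, mul_sub, sub_mul, mul_one, mul_assoc (b₀ ^ i) P.f, hcomm']
        simp only [mul_assoc]
        abel
      rw [h1]
      exact P.neg_add' (P.neg_add' (hrbi' i (P.neg_left _ hbb)) h0) ih
  have hκ0 : κ ≠ 0 := by
    intro h0
    rw [h0, zero_smul, sub_zero] at hβf
    have h1 : P.Neg P.f := by
      have := P.neg_sub' (hrbi' e hβf) (hpp e)
      simpa using this
    refine P.f0_not_neg ?_
    have := P.neg_left P.f0 h1
    rwa [P.f0f] at this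
  obtain ⟨ν, hν⟩ := IsAlgClosed.exists_pow_nat_eq κ⁻¹ (Nat.pos_of_ne_zero fun h : e = 0 => he0 (by
    rw [h, Nat.cast_zero]))
  refine ⟨{
    C := P.C, T := T, n := P.n, m := P.m, e := e, t := t, f := P.f, f0 := P.f0, y := P.y, α := ν • α
    u := P.u, v := P.v, sf := P.sf, sf0 := P.sf0, sy := P.sy, sα := hαs.smul _, su := P.su, sv := P.sv
    idem := P.idem, fidem := P.fidem, ff0 := P.ff0, f0f := P.f0f, fu := P.fu, uf0 := P.uf0, f0v := P.f0v
    vf := P.vf, sum_eq := P.sum_eq, fcen := P.fcen, ycen := P.ycen, yf := P.yf, poly := P.poly, ynil := P.ynil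
    ytop := P.ytop, CT := hCT, tT := htT, tnorm := hnorm, cover := hcover, powC := hpow, e0 := he0, tf := htf
    ty := ⟨z, hzy, hz⟩, ty' := ⟨z', hzy', hz'⟩
    bcomm := fun x hx => ?_, bpow := ?_ }, rfl, rfl, rfl, rfl, rfl, rfl⟩
  · have h := P.neg_ksmul ν (hbcomm x hx)
    obtain ⟨r, hr⟩ := h
    refine ⟨r, ?_⟩
    rw [← hr, hb, smul_mul_assoc, mul_smul_comm, smul_mul_assoc, smul_sub]
  · have h := P.neg_ksmul κ⁻¹ hβf
    obtain ⟨r, hr⟩ := h
    refine ⟨r, ?_⟩
    rw [← hr, smul_mul_assoc, smul_pow, hν, smul_sub, sub_mul, smul_smul, inv_mul_cancel₀ hκ0, one_smul, P.fidem]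

end Cor

end CfsgLib.Blocks.CyclicRank
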