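import Cfsg.Agent.Blocks.CyclicRank.Total
import Cfsg.Agent.Blocks.CyclicRankOne.Main
import Cfsg.Agent.Blocks.BrauerChar.Decomp

/-!
# The irreducible Brauer characters of a block are the labels
-/

set_option autoImplicit false
set_option linter.unusedSectionVars false
set_option linter.style.haveILetI false

namespace CfsgLib.Blocks.CyclicRank

open Cfsg CfsgLib CfsgLib.Blocks CfsgLib.CharBasics CfsgLib.BrauerChar CfsgLib.Blocks.CyclicRankOne Module
open scoped MonoidAlgebra

variable {p : ℕ} {M : Ideal AlgInt} {G : Type*} [Group G] [Fintype G] {hM : IsPModular p M}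
variable {B : Set (IrrCharacter G)} (hB : IsPBlock M B)

section Act

variable {V : Type*} [AddCommGroup V] [Module (RF hM) V]

open Classical in
/-- The block idempotent acts on a representation with class scalars by membership. -/
theorem eBar_act (ρ : Representation (RF hM) G V) {χ : IrrCharacter G}
    (hω : ClassScalar ρ (omegaBar hM χ)) (v : V) :
    ρ.asAlgebraHom (eBar hM hB) v = (if χ ∈ B then 1 else 0 : RF hM) • v := by
  classical
  rw [← TwoChar.sum_single' (eBar hM hB), map_sum, LinearMap.sum_apply]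
  simp only [Representation.asAlgebraHom_single, LinearMap.smul_apply, coeff_eBar]
  rw [← Finset.sum_fiberwise Finset.univ (ConjClasses.mk : G → ConjClasses G)]
  have hfib : ∀ C : ConjClasses G, (Finset.univ.filter fun x => ConjClasses.mk x = C) =
      Finset.univ.filter fun x => x ∈ {y | IsConj C.out y} := fun C => by
    refine Finset.filter_congr fun x _ => ?_
    conv_lhs => rhs; rw [← Quot.out_eq C]
    exact (ConjClasses.mk_eq_mk_iff_isConj (a := x) (b := C.out)).trans ⟨IsConj.symm, IsConj.symm⟩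
  have h1 : ∀ C : ConjClasses G, ∑ x ∈ Finset.univ.filter (fun x => ConjClasses.mk x = C),
      res hM (eR hM hB x) • ρ x v = (res hM (eR hM hB C.out) * omegaBar hM χ C.out) • v := fun C => by
    rw [hfib, mul_smul, ← hω C.out v, finsum_mem_eq_toFinset_sum, Finset.smul_sum]
    refine Finset.sum_congr (by ext; simp) fun x hx => ?_
    obtain ⟨y, rfl⟩ := isConj_iff.1 (show IsConj C.out x by simpa using hx)
    rw [eR_conj]
  simp only [h1, ← Finset.sum_smul]
  congr 1
  let w : ConjClasses G → plc hM := fun C =>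
    (eR hM hB C.out : plc hM) * ⟨centralChar (χ : G → ℂ) C.out, mem_plc hM (memLocalRing_centralChar hM χ C.out)⟩
  have h2 : ∑ C, w C = if χ ∈ B then 1 else 0 := by
    refine Subtype.ext ?_
    rw [AddSubmonoidClass.coe_finsetSum]
    have h3 : omega (χ : G → ℂ) (blockElt B) = if χ ∈ B then 1 else 0 := omega_blockElt B χ
    rw [omega] at h3
    rw [show (((if χ ∈ B then 1 else 0 : plc hM)) : ℂ) = if χ ∈ B then 1 else 0 by
        split_ifs
        exacts [OneMemClass.coe_one _, ZeroMemClass.coe_zero _],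
      ← h3, ← Finset.sum_fiberwise Finset.univ (ConjClasses.mk : G → ConjClasses G), Finset.sum_div]
    refine Finset.sum_congr rfl fun C _ => ?_
    have hterm : ∀ x ∈ Finset.univ.filter (fun x => x ∈ {y | IsConj C.out y}),
        (blockElt B).coeff x * (χ : G → ℂ) x = blockCoeff B C.out * (χ : G → ℂ) C.out := fun x hx => by
      obtain ⟨y, rfl⟩ := isConj_iff.1 (show IsConj C.out x by simpa using hx)
      rw [coeff_conj (isClassElt_blockElt B), coeff_blockElt, CharBasics.isClassFunction (isCharacter_of_irr χ.2)]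
    rw [hfib, Finset.sum_congr rfl hterm, Finset.sum_const, nsmul_eq_mul]
    rw [show (Finset.univ.filter fun x => x ∈ {y | IsConj C.out y}).card =
        (Subgroup.centralizer ({C.out} : Set G)).index by
      rw [← card_conjClass, Nat.card_eq_fintype_card, Fintype.card_subtype]
      exact congrArg _ (Finset.filter_congr fun x _ => by simp)]
    show blockCoeff B C.out * centralChar (χ : G → ℂ) C.out = _
    rw [centralChar]
    ring
  have h4 : ∀ C, res hM (eR hM hB C.out) * omegaBar hM χ C.out = res hM (w C) := fun C => by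
    simp only [w, omegaBar, map_mul]
  rw [Finset.sum_congr rfl fun C _ => h4 C, ← map_sum, h2]
  split_ifs
  · exact map_one _
  · exact map_zero _

end Act

/-- Irreducible representations with the same Brauer character are equivalent. -/
theorem exists_equiv_of_bc {n m : ℕ} {ρ : Representation (RF hM) G (Fin n → RF hM)}
    {σ : Representation (RF hM) G (Fin m → RF hM)} (hi : ρ.IsIrreducible) (hi' : σ.IsIrreducible)
    (h : bc hM ρ = bc hM σ) : ∃ e : (Fin n → RF hM) ≃ₗ[RF hM] (Fin m → RF hM), ∀ g, σ g = e.conj (ρ g) := by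
  classical
  by_contra he
  let l : Bool → ℕ := fun b => cond b n m
  let R : ∀ b, Representation (RF hM) G (Fin (l b) → RF hM) := fun b =>
    match b with
    | true => ρ
    | false => σ
  have hne : ∀ (b b' : Bool) (e : (Fin (l b) → RF hM) ≃ₗ[RF hM] (Fin (l b') → RF hM)),
      (∀ g, R b' g = e.conj (R b g)) → b = b' := by
    rintro (_ | _) (_ | _) e hb <;> try rfl
    · refine absurd ⟨e.symm, fun g => ?_⟩ he
      refine LinearMap.ext fun w => ?_
      show σ g w = e.symm.conj (ρ g) w
      rw [show ρ g = e.conj (σ g) from hb g, LinearEquiv.conj_apply_apply, LinearEquiv.conj_apply_apply,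
        LinearEquiv.symm_symm, e.symm_apply_apply, e.symm_apply_apply]
    · exact absurd ⟨e, hb⟩ he
  have h0 := trace_indep l R (fun b => by cases b <;> assumption) hne (fun b => cond b 1 (-1)) fun g hg => by
    rw [Fintype.sum_bool]
    show 1 * LinearMap.trace (RF hM) _ (ρ g) + (-1) * LinearMap.trace (RF hM) _ (σ g) = 0
    rw [← res_bc ρ hg, ← res_bc σ hg]
    simp only [← h]
    ring
  exact one_ne_zero (congrFun h0 true)

/-- An equivalence of representations is an equivalence of modules. -/
theorem asModule_equiv {V W : Type*} [AddCommGroup V] [Module (RF hM) V] [AddCommGroup W] [Module (RF hM) W]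
    (ρ : Representation (RF hM) G V) (σ : Representation (RF hM) G W) (e : V ≃ₗ[RF hM] W)
    (h : ∀ g, σ g = e.conj (ρ g)) : Nonempty (ρ.asModule ≃ₗ[MonoidAlgebra (RF hM) G] σ.asModule) := by
  refine ⟨{ toFun := fun x => σ.asModuleEquiv.symm (e (ρ.asModuleEquiv x))
            map_add' := fun a b => by simp only [map_add]
            map_smul' := fun a x => ?_
            invFun := fun y => ρ.asModuleEquiv.symm (e.symm (σ.asModuleEquiv y))
            left_inv := fun x => by simp
            right_inv := fun y => by simp }⟩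
  rw [RingHom.id_apply]
  apply σ.asModuleEquiv.injective
  rw [LinearEquiv.apply_symm_apply, Representation.asModuleEquiv_map_smul, Representation.asModuleEquiv_map_smul,
    LinearEquiv.apply_symm_apply]
  induction a using MonoidAlgebra.induction_on with
  | of g => simp [h, LinearEquiv.conj_apply_apply]
  | add a b ha hb => simp [map_add, LinearMap.add_apply, ha, hb]
  | smul c a ha => simp [map_smul, LinearMap.smul_apply, ha]

theorem equiv_conj {n m : ℕ} {ρ : Representation (RF hM) G (Fin n → RF hM)}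
    {σ : Representation (RF hM) G (Fin m → RF hM)}
    (L : ρ.asModule ≃ₗ[MonoidAlgebra (RF hM) G] σ.asModule) : bc hM σ = bc hM ρ := by
  let e : (Fin n → RF hM) ≃ₗ[RF hM] (Fin m → RF hM) :=
    ρ.asModuleEquiv.symm.trans ((L.restrictScalars (RF hM)).trans σ.asModuleEquiv)
  refine bc_equiv ρ σ e fun g => LinearMap.ext fun w => ?_
  rw [LinearEquiv.conj_apply_apply]
  show _ = σ.asModuleEquiv (L (ρ.asModuleEquiv.symm (ρ g (e.symm w))))
  rw [Representation.asModuleEquiv_symm_map_rho, map_smul, Representation.asModuleEquiv_map_smul]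
  conv_lhs => rw [← e.apply_symm_apply w]
  simp only [MonoidAlgebra.of_apply, Representation.asAlgebraHom_single, one_smul]
  rfl

open Classical in
theorem smul_asModule {V : Type*} [AddCommGroup V] [Module (RF hM) V] (ρ : Representation (RF hM) G V)
    {χ : IrrCharacter G} (hω : ClassScalar ρ (omegaBar hM χ)) (u : ρ.asModule) :
    eBar hM hB • u = (if χ ∈ B then 1 else 0 : RF hM) • u := by
  apply ρ.asModuleEquiv.injective
  rw [Representation.asModuleEquiv_map_smul, map_smul, eBar_act hB ρ hω]

/-- Members of the block give simple modules of the block. -/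
theorem exists_module {φ : IBr hM G} (hφ : φ ∈ IBrB hM B) :
    ∃ (n : ℕ) (ρ : Representation (RF hM) G (Fin n → RF hM)), ρ.IsIrreducible ∧ (φ : G → ℂ) = bc hM ρ ∧
      ∀ u : ρ.asModule, eBar hM hB • u = u := by
  classical
  obtain ⟨χ, hχ, hd⟩ := hφ
  obtain ⟨n, ρ, hirr, hω, hbc⟩ := (exists_decomp hM χ).choose_spec.2 φ hd
  exact ⟨n, ρ, hirr, hbc, fun u => by rw [smul_asModule hB ρ hω, if_pos hχ, one_smul]⟩

include hB in
/-- Simple modules of the block give members of the block. -/
theorem exists_iBr {U : Type*} [AddCommGroup U] [Module (RF hM) U] [Module (MonoidAlgebra (RF hM) G) U]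
    [IsScalarTower (RF hM) (MonoidAlgebra (RF hM) G) U] [IsSimpleModule (MonoidAlgebra (RF hM) G) U]
    [FiniteDimensional (RF hM) U] (heU : ∀ u : U, eBar hM hB • u = u) :
    ∃ φ ∈ IBrB hM B, ∀ (n : ℕ) (ρ : Representation (RF hM) G (Fin n → RF hM)), ρ.IsIrreducible →
      (φ : G → ℂ) = bc hM ρ → Nonempty (ρ.asModule ≃ₗ[MonoidAlgebra (RF hM) G] U) := by
  classical
  let e := (Module.finBasis (RF hM) U).equivFun
  let R : Representation (RF hM) G (Fin (finrank (RF hM) U) → RF hM) :=
    { toFun := fun g => e.conj (Algebra.lsmul (RF hM) (RF hM) U (el g : MonoidAlgebra (RF hM) G))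
      map_one' := by rw [el_one, map_one]; simp [LinearEquiv.conj_id, Module.End.one_eq_id]
      map_mul' := fun g h => by rw [← el_mul, map_mul, Module.End.mul_eq_comp, LinearEquiv.conj_comp]; rfl }
  have hR : ∀ a w, R.asAlgebraHom a w = e (a • e.symm w) := by
    intro a w
    induction a using MonoidAlgebra.induction_on with
    | of g => simp [R, LinearEquiv.conj_apply_apply]
    | add a b ha hb => simp [map_add, add_smul, ha, hb]
    | smul c a ha => simp [map_smul, smul_assoc, ha]
  let L : R.asModule ≃ₗ[MonoidAlgebra (RF hM) G] U :=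
    { toFun := fun x => e.symm (R.asModuleEquiv x)
      map_add' := fun a b => by simp only [map_add]
      map_smul' := fun a x => by
        rw [RingHom.id_apply, Representation.asModuleEquiv_map_smul, hR, e.symm_apply_apply]
      invFun := fun u => R.asModuleEquiv.symm (e u)
      left_inv := fun x => by simp
      right_inv := fun u => by simp }
  have hirr : R.IsIrreducible := by
    rw [Representation.irreducible_iff_isSimpleModule_asModule]
    exact IsSimpleModule.congr L
  let φ : IBr hM G := ⟨bc hM R, _, R, hirr, rfl⟩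
  have huniq : ∀ (n : ℕ) (ρ : Representation (RF hM) G (Fin n → RF hM)), ρ.IsIrreducible →
      bc hM R = bc hM ρ → Nonempty (ρ.asModule ≃ₗ[MonoidAlgebra (RF hM) G] U) := fun n ρ hρ hb => by
    obtain ⟨e', he'⟩ := exists_equiv_of_bc hρ hirr hb.symm
    obtain ⟨L'⟩ := asModule_equiv ρ R e' he'
    exact ⟨L'.trans L⟩
  obtain ⟨χ, hd⟩ := exists_dec_ne_zero hM φ
  refine ⟨φ, ⟨χ, ?_, hd⟩, huniq⟩
  by_contra hχ
  obtain ⟨n, ρ, hρ, hω, hbc⟩ := (exists_decomp hM χ).choose_spec.2 φ hd
  obtain ⟨L'⟩ := huniq n ρ hρ hbc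
  haveI := IsSimpleModule.nontrivial (MonoidAlgebra (RF hM) G) U
  obtain ⟨u, hu⟩ := exists_ne (0 : U)
  refine hu ?_
  have h1 := smul_asModule hB ρ hω (L'.symm u)
  rw [if_neg hχ, zero_smul, ← map_smul, heU] at h1
  exact L'.symm.injective (h1.trans (map_zero L'.symm).symm)

section Count

variable [Fact p.Prime] {S : Loc (RF hM) G}

theorem hasLabel_equiv {U V : Type*} [AddCommGroup U] [Module (RF hM) U] [Module (MonoidAlgebra (RF hM) G) U]
    [IsScalarTower (RF hM) (MonoidAlgebra (RF hM) G) U]
    [AddCommGroup V] [Module (RF hM) V] [Module (MonoidAlgebra (RF hM) G) V]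
    [IsScalarTower (RF hM) (MonoidAlgebra (RF hM) G) V] (L : U ≃ₗ[MonoidAlgebra (RF hM) G] V) {ζ : RF hM}
    (h : HasLabel S U ζ) : HasLabel S V ζ := by
  obtain ⟨s, ⟨h0, hy, hb⟩, hT⟩ := h
  refine ⟨L s, ⟨by rw [← map_smul, h0], by rw [← map_smul, hy, map_zero], ?_⟩, fun ⟨r, hr⟩ => hT ⟨L.symm r, ?_⟩⟩
  · rw [← map_smul, hb]; exact LinearMap.map_smul_of_tower L.toLinearMap ζ s
  · apply L.injective
    rw [map_smul, L.apply_symm_apply, hr]

variable (Gl : Glob S p)

/-- The rank of the block is the number of labels. -/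
theorem blockRank_eq_e (hGl : Gl.eB = eBar hM hB) : blockRank p B = S.e := by
  classical
  haveI : Fintype (IrrCharacter G) := @Fintype.ofFinite _ finite_irrCharacter
  rw [blockRank_eq_card hM hB]
  have hmod : ∀ φ : IBrB hM B, ∃ (n : ℕ) (ρ : Representation (RF hM) G (Fin n → RF hM)) (ζ : RF hM),
      ρ.IsIrreducible ∧ ((φ : IBr hM G) : G → ℂ) = bc hM ρ ∧ ζ ^ S.e = 1 ∧ HasLabel S ρ.asModule ζ := by
    rintro ⟨φ, hφ⟩
    obtain ⟨n, ρ, hirr, hbc, heU⟩ := exists_module hB hφ
    haveI : IsSimpleModule (MonoidAlgebra (RF hM) G) ρ.asModule :=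
      (Representation.irreducible_iff_isSimpleModule_asModule ρ).1 hirr
    obtain ⟨w, h0, hy, hT⟩ : ∃ w : ρ.asModule, S.f0 • w = w ∧ S.y • w = 0 ∧ ¬ S.Top w := by
      by_contra hne
      push Not at hne
      exact Gl.false_of_all_top (U := ρ.asModule) (fun w h0 hy => hne w h0 hy) (fun u => by rw [hGl]; exact heU u)
    obtain ⟨ζ, s, -, hs, hsT, -⟩ := exists_eig (S := S) h0 hy hT (j := 0) (r := w) (by rw [pow_zero, one_smul])
    exact ⟨n, ρ, ζ, hirr, hbc, eig_root hs (fun h => hsT (h ▸ top_zero)), s, hs, hsT⟩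
  choose n ρ ζ hirr hbc hζ hlab using hmod
  haveI : NeZero ((S.e : ℕ) : RF hM) := ⟨S.e0⟩
  obtain ⟨ξ, hξ⟩ := HasEnoughRootsOfUnity.exists_primitiveRoot (RF hM) S.e
  let F : IBrB hM B → Polynomial.nthRootsFinset S.e (1 : RF hM) := fun φ =>
    ⟨ζ φ, (Polynomial.mem_nthRootsFinset S.e_pos (1 : RF hM)).2 (hζ φ)⟩
  have hF : Function.Bijective F := by
    refine ⟨fun φ ψ h => ?_, fun ⟨c, hc⟩ => ?_⟩
    · have h' : ζ φ = ζ ψ := congrArg Subtype.val h
      haveI := (Representation.irreducible_iff_isSimpleModule_asModule (ρ φ)).1 (hirr φ)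
      haveI := (Representation.irreducible_iff_isSimpleModule_asModule (ρ ψ)).1 (hirr ψ)
      obtain ⟨L⟩ := equiv_of_label Gl (hlab φ) (h' ▸ hlab ψ)
      exact Subtype.ext (Subtype.ext ((hbc φ).trans ((equiv_conj L).symm.trans (hbc ψ).symm)))
    · have hc' := (Polynomial.mem_nthRootsFinset S.e_pos (1 : RF hM)).1 hc
      obtain ⟨V, N, hN, heU, hlabN⟩ := exists_label Gl hc'
      haveI : IsSimpleModule (MonoidAlgebra (RF hM) G) (V ⧸ N) := isSimpleModule_iff_isCoatom.2 hN
      haveI : FiniteDimensional (RF hM) V := inferInstanceAs (FiniteDimensional (RF hM) (V.restrictScalars (RF hM)))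
      haveI : FiniteDimensional (RF hM) (V ⧸ N) :=
        Module.Finite.of_surjective (N.mkQ.restrictScalars (RF hM)) N.mkQ_surjective
      obtain ⟨φ, hφ, huniq⟩ := exists_iBr hB (U := V ⧸ N) (fun u => by rw [← hGl]; exact heU u)
      refine ⟨⟨φ, hφ⟩, Subtype.ext ?_⟩
      obtain ⟨L⟩ := huniq _ _ (hirr ⟨φ, hφ⟩) (hbc ⟨φ, hφ⟩)
      exact label_unique Gl (hasLabel_equiv L (hlab ⟨φ, hφ⟩)) hlabN
  rw [Nat.card_eq_of_bijective F hF, Nat.card_eq_fintype_card, Fintype.card_coe, hξ.card_nthRootsFinset]

end Count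

end CfsgLib.Blocks.CyclicRank
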