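import Cfsg.Agent.Blocks.CyclicRank.Lower

/-!
# Every simple module of the block has a label

Otherwise the restriction to the centralizer would be relatively projective for the trivial subgroup, the identity
would be a trace over the group, and the block idempotent would have nilpotent truncation.
-/

set_option autoImplicit false
set_option linter.unusedSectionVars false
set_option linter.style.haveILetI false

namespace CfsgLib.Blocks.CyclicRank

open CfsgLib.Blocks.CyclicRankOne CfsgLib.PairAlg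

variable {k : Type} [Field k] {G : Type*} [Group G] [Fintype G]

noncomputable local instance instFintypeQuotCyclicRankTotal {K : Type*} [Group K] [Finite K] (L : Subgroup K) :
    Fintype (K ⧸ L) := Fintype.ofFinite _

noncomputable local instance instFintypeSubgroupCyclicRankTotal (K : Subgroup G) : Fintype K := Fintype.ofFinite K

variable {S : Loc k G} {p : ℕ}

theorem commute_of_el {x : MonoidAlgebra k G} (h : ∀ g, el g * x = x * el g) (a : MonoidAlgebra k G) :
    x * a = a * x := by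
  rw [← TwoChar.sum_single' a, Finset.mul_sum, Finset.sum_mul]
  refine Finset.sum_congr rfl fun g _ => ?_
  rw [show MonoidAlgebra.single g (a.coeff g) = a.coeff g • (el g : MonoidAlgebra k G) by
    rw [MonoidAlgebra.smul_single, smul_eq_mul, mul_one], mul_smul_comm, smul_mul_assoc, h]

theorem cut_cj_of_centralizing {C : Subgroup G} {h : G} (hh : ∀ c ∈ C, c * h = h * c) (hhC : h ∈ C)
    (a : MonoidAlgebra k G) : cut C (cj h a) = cut C a := by
  classical
  ext x
  rw [coeff_cut, coeff_cut, coeff_cj]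
  split_ifs with hx
  · rw [mul_assoc, hh x hx, inv_mul_cancel_left]
  · rfl

theorem sum_prod_coset {M : Type*} [AddCommMonoid M] (D : Subgroup G) (F : G → M) :
    ∑ q : G ⧸ D, ∑ d : D, F (q.out * d) = ∑ g, F g := by
  rw [← Fintype.sum_prod_type' (fun (q : G ⧸ D) (d : D) => F (q.out * d))]
  refine Fintype.sum_bijective (fun x : (G ⧸ D) × D => x.1.out * (x.2 : G)) ⟨?_, ?_⟩ _ _ fun _ => rfl
  · rintro ⟨q, d⟩ ⟨q', d'⟩ h
    have hq : q = q' := by
      rw [← QuotientGroup.out_eq' q, ← QuotientGroup.out_eq' q']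
      refine QuotientGroup.eq.2 ?_
      have h1 : q.out⁻¹ * q'.out = (d : G) * (d' : G)⁻¹ := by
        have h0 : q.out * (d : G) = q'.out * (d' : G) := h
        have := congrArg (fun t => q.out⁻¹ * t * (d' : G)⁻¹) h0
        simpa [mul_assoc] using this.symm
      rw [h1]
      exact D.mul_mem d.2 (D.inv_mem d'.2)
    subst hq
    exact Prod.ext rfl (Subtype.ext (mul_left_cancel (show q.out * (d : G) = q.out * (d' : G) from h)))
  · intro g
    refine ⟨((g : G ⧸ D), ⟨(g : G ⧸ D).out⁻¹ * g, QuotientGroup.eq.1 (QuotientGroup.out_eq' _)⟩), ?_⟩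
    exact mul_inv_cancel_left _ g

theorem f_mul_pow {a : MonoidAlgebra k G} (hfa : S.f * a = S.f) : ∀ n : ℕ, S.f * a ^ n = S.f := by
  intro n
  induction n with
  | zero => rw [pow_zero, mul_one]
  | succ n ih => rw [pow_succ, ← mul_assoc, ih, hfa]

theorem f_ne_zero (S : Loc k G) : S.f ≠ 0 := fun h => S.ytop (by rw [← S.f0f, h, mul_zero, mul_zero])

variable [Fact p.Prime] [CharP k p] (Gl : Glob S p)

theorem Glob.isP : IsPGroup p (Subgroup.zpowers Gl.z) :=
  IsPGroup.of_card (n := 1) (by rw [Nat.card_zpowers, Gl.hz, pow_one])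

theorem Glob.centralizer_eq :
    Subgroup.centralizer (Subgroup.zpowers Gl.z : Set G) = S.C := by
  ext x
  rw [Subgroup.mem_centralizer_iff, Gl.hC]
  refine ⟨fun h => (h _ (Subgroup.mem_zpowers _)).symm, fun h y hy => ?_⟩
  obtain ⟨n, rfl⟩ := hy
  exact ((show Commute x Gl.z from h).zpow_right n).eq.symm

theorem fix_of_comm {P : Subgroup G} {x : MonoidAlgebra k G} (h : ∀ a, x * a = a * x) : Fix P x := fun u _ => by
  rw [cj_eq, ← h, mul_assoc, el_mul, mul_inv_cancel, el_one, mul_one]

include Gl in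
/-- A nilpotent product with the block idempotent cannot have truncation fixed by the block of the centralizer. -/
theorem Glob.not_nilpotent {x : MonoidAlgebra k G} (hx : ∀ a, x * a = a * x) (hfx : S.f * cut S.C x = S.f) :
    ¬ IsNilpotent x := by
  rintro ⟨n, hn⟩
  refine f_ne_zero S ?_
  have h1 := br_pow Gl.isP (fix_of_comm (P := Subgroup.zpowers Gl.z) hx) n
  rw [hn, map_zero, Br, Gl.centralizer_eq] at h1
  rw [← f_mul_pow hfx n, ← h1, mul_zero]

section Module

variable [IsAlgClosed k] {U : Type*} [AddCommGroup U] [Module k U] [Module (MonoidAlgebra k G) U]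
  [IsScalarTower k (MonoidAlgebra k G) U] [IsSimpleModule (MonoidAlgebra k G) U] [FiniteDimensional k U]

/-- A nilpotent central element kills a simple module. -/
theorem nilpotent_smul {x : MonoidAlgebra k G} (hx : ∀ a, x * a = a * x) (hn : IsNilpotent x) (u : U) :
    x • u = 0 := by
  obtain ⟨c, hc⟩ := exists_scalar (U := U)
    { toFun := fun v => x • v
      map_add' := smul_add x
      map_smul' := fun a v => by rw [RingHom.id_apply, smul_smul, hx, ← smul_smul] }
  have hc' : ∀ v : U, x • v = c • v := hc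
  obtain ⟨n, hn⟩ := hn
  have hpow : ∀ (m : ℕ) (v : U), x ^ m • v = c ^ m • v := by
    intro m
    induction m with
    | zero => intro v; rw [pow_zero, pow_zero, one_smul, one_smul]
    | succ m ih => intro v; rw [pow_succ', ← smul_smul, ih, hc', smul_smul, ← pow_succ']
  haveI : Nontrivial U := IsSimpleModule.nontrivial (MonoidAlgebra k G) U
  obtain ⟨v, hv⟩ := exists_ne (0 : U)
  have h1 := hpow n v
  rw [hn, zero_smul] at h1
  have h2 : c = 0 := eq_zero_of_pow_eq_zero ((smul_eq_zero.1 h1.symm).resolve_right hv)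
  rw [hc', h2, zero_smul]

/-- The scalar of a central element on the simple modules of the block. -/
theorem Glob.central_smul (heU : ∀ u : U, Gl.eB • u = u) {x : MonoidAlgebra k G} (hx : ∀ a, x * a = a * x) {c : k}
    (hn : IsNilpotent (Gl.eB * x - c • Gl.eB)) (u : U) : x • u = c • u := by
  have hcen : ∀ a, (Gl.eB * x - c • Gl.eB) * a = a * (Gl.eB * x - c • Gl.eB) := fun a => by
    rw [sub_mul, mul_sub, mul_assoc, hx, ← mul_assoc, Gl.central, mul_assoc, smul_mul_assoc, mul_smul_comm,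
      Gl.central a]
  have h := nilpotent_smul hcen hn u
  rw [sub_smul, ← smul_smul, heU, smul_assoc, heU, sub_eq_zero] at h
  exact h

variable (hno : ∀ w : U, S.f0 • w = w → S.y • w = 0 → S.Top w)
include hno

/-- The block part is a trace from the trivial subgroup. -/
theorem Glob.f_eq_tr : ∃ h : U →ₗ[k] U, ∀ x, S.f • x = Loc.tr S.C h x := by
  classical
  let K : Submodule k U := LinearMap.ker (Algebra.lsmul k k U S.f0 - LinearMap.id) ⊓
    LinearMap.ker (Algebra.lsmul k k U S.y)
  have hKmem : ∀ w, w ∈ K ↔ S.f0 • w = w ∧ S.y • w = 0 := fun w => by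
    simp [K, sub_eq_zero]
  let BK := Module.finBasis k K
  obtain ⟨π, hπ⟩ := LinearMap.exists_leftInverse_of_injective K.subtype K.ker_subtype
  have hπ' : ∀ w : K, π w = w := fun w => LinearMap.congr_fun hπ w
  choose r hr using fun b => hno (BK b) ((hKmem _).1 (BK b).2).1 ((hKmem _).1 (BK b).2).2
  let μ : Fin (Module.finrank k K) → Module.Dual k U := fun b => BK.coord b ∘ₗ π
  let v : Fin (Module.finrank k K) → U := fun b => S.f0 • r b
  have hv : ∀ b, S.y ^ S.m • v b = (BK b : U) := fun b => by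
    simp only [v]
    rw [smul_smul, S.ypow_cen _ S.sf0, ← smul_smul, ← hr, ((hKmem _).1 (BK b).2).1]
  have hμ : ∀ b (w : U), μ b (S.y ^ (S.m + 1) • w) = 0 := fun b w => by rw [S.ynil, zero_smul, map_zero]
  have hf0 : S.f0 • S.f0 = S.f0 := S.idem
  have hy0 : S.y ^ (S.m + 1) • S.f0 = (0 : MonoidAlgebra k G) := by rw [smul_eq_mul, S.ynil, zero_mul]
  let α : Fin (Module.finrank k K) → U →ₗ[k] MonoidAlgebra k G := fun b => S.lift (S.chain S.m (μ b) S.f0)
  have hcor : ∀ b x, Supp S.C x → ∀ w : U, S.f0 • w = w →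
      S.chain S.m (μ b) S.f0 ((S.f0 * x * S.f0) • w) = (S.f0 * x * S.f0) • S.chain S.m (μ b) S.f0 w :=
    fun b x hx w hw => S.chain_corner (hμ b) hy0 hf0 hx w hw
  have hα : ∀ b, S.Lin (α b) := fun b => S.lift_lin (hcor b)
  have hαs : ∀ b w, Supp S.C (α b w) := fun b w => by
    simp only [α, Loc.lift_apply, Loc.chain_apply, smul_eq_mul]
    exact supp_sum _ _ fun l _ => (S.su l).mul (supp_sum _ _ fun i _ => Supp.smul _ ((S.supp_pow S.sy i).mul S.sf0))
  let Φ : U →ₗ[k] U := ∑ b, (LinearMap.toSpanSingleton (MonoidAlgebra k G) U (v b)).restrictScalars k ∘ₗ α b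
  have hΦ : ∀ w, Φ w = ∑ b, α b w • v b := fun w => by simp [Φ, LinearMap.sum_apply]
  have hΦlin : S.Lin Φ := fun x hx w => by
    simp only [hΦ, Finset.smul_sum]
    exact Finset.sum_congr rfl fun b _ => by rw [hα b x hx w, smul_eq_mul, mul_smul]
  have hΦK : ∀ w, S.f0 • w = w → S.y • w = 0 → Φ w = w := fun w h0 hy => by
    rw [hΦ]
    have hαw : ∀ b, α b w = μ b w • (S.y ^ S.m * S.f0) := fun b => by
      have h1 := S.chain_ker (j := S.m) (μ := μ b) (v' := S.f0) w hy
      rw [show α b w = S.chain S.m (μ b) S.f0 w from S.lift_corner (hcor b) h0 ?_, h1, smul_eq_mul]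
      rw [h1, smul_comm, smul_eq_mul, smul_eq_mul, ← mul_assoc, ← S.ypow_cen _ S.sf0, mul_assoc, S.idem]
    have hv0 : ∀ b, (S.y ^ S.m * S.f0) • v b = (BK b : U) := fun b => by
      rw [← smul_smul, show S.f0 • v b = v b by simp only [v]; rw [smul_smul, S.idem], hv]
    simp only [hαw, smul_assoc, hv0]
    let w' : K := ⟨w, (hKmem w).2 ⟨h0, hy⟩⟩
    have hμw : ∀ b, μ b w = BK.repr w' b := fun b => by
      show BK.coord b (π w) = _
      rw [show π w = w' from hπ' w', Module.Basis.coord_apply]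
    simp only [hμw]
    have h2 := congrArg Subtype.val (BK.sum_repr w')
    simpa only [Submodule.coe_sum, Submodule.coe_smul_of_tower] using h2
  have hΦKer : ∀ w, S.Ker w → Φ w = w := fun w hw => by
    have h1 : w = ∑ l, S.u l • (S.v l • w) := by
      conv_lhs => rw [← hw.1, ← S.sum_eq, Finset.sum_smul]
      exact Finset.sum_congr rfl fun l _ => (smul_smul _ _ _).symm
    conv_lhs => rw [h1, map_sum]
    conv_rhs => rw [h1]
    refine Finset.sum_congr rfl fun l _ => ?_
    rw [hΦlin _ (S.su l), hΦK _ (by rw [smul_smul, S.f0v]) (S.ker_smul hw (S.sv l)).2]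
  have hfΦ : ∀ w, S.f • Φ w = Φ w := fun w => by
    simp only [hΦ, Finset.smul_sum]
    exact Finset.sum_congr rfl fun b _ => by rw [← smul_assoc, show S.f • α b w = α b w from S.lift_f _ w]
  let Φ' : U →ₗ[k] U := Φ + (LinearMap.id - Algebra.lsmul k k U S.f)
  have hΦ' : ∀ w, Φ' w = Φ w + (w - S.f • w) := fun w => by simp [Φ']
  have hff : ∀ w : U, S.f • S.f • w = S.f • w := fun w => by rw [smul_smul, S.fidem]
  have hinj : Function.Injective Φ' := by
    rw [← LinearMap.ker_eq_bot, Submodule.eq_bot_iff]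
    intro w hw
    rw [LinearMap.mem_ker, hΦ'] at hw
    have h1 := congrArg (S.f • ·) hw
    simp only [smul_add, smul_sub, hff, sub_self, add_zero, smul_zero, hfΦ] at h1
    rw [h1, zero_add, sub_eq_zero] at hw
    by_contra hne
    have hex : ∃ i, S.y ^ i • w ≠ 0 ∧ S.y ^ (i + 1) • w = 0 := by
      by_contra hno'
      push Not at hno'
      have hall : ∀ i, S.y ^ i • w ≠ 0 := fun i =>
        Nat.rec (by rwa [pow_zero, one_smul]) (fun j hj => hno' j hj) i
      exact hall (S.m + 1) (by rw [S.ynil, zero_smul])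
    obtain ⟨i, hi, hi1⟩ := hex
    refine hi ?_
    have hK : S.Ker (S.y ^ i • w) :=
      ⟨by rw [smul_smul, ← S.ypow_cen i S.sf, ← smul_smul, ← hw], by rw [smul_smul, ← pow_succ', hi1]⟩
    rw [← hΦKer _ hK, hΦlin _ (S.supp_pow S.sy i), h1, smul_zero]
  let E := LinearEquiv.ofInjectiveEndo Φ' hinj
  have hE : ∀ w, E w = Φ' w := fun w => rfl
  have hΦ'lin : S.Lin Φ' := fun x hx w => by
    rw [hΦ', hΦ', hΦlin x hx, smul_add, smul_sub, smul_smul, S.fcen x hx, ← smul_smul]
  have hsymm : ∀ x, Supp S.C x → ∀ w, E.symm (x • w) = x • E.symm w := fun x hx w => by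
    refine E.injective ?_
    rw [E.apply_symm_apply, hE, hΦ'lin x hx, ← hE, E.apply_symm_apply]
  have hcancel : ∀ w, E.symm (Φ w) = S.f • w := fun w => by
    refine E.injective ?_
    rw [E.apply_symm_apply, hE, hΦ', hff, sub_self, add_zero, hΦlin _ S.sf, hfΦ]
  let ev : MonoidAlgebra k G →ₗ[k] k := LinearMap.proj (1 : G) ∘ₗ TwoChar.coords.toLinearMap
  have hev : ∀ a, ev a = a.coeff 1 := fun a => rfl
  let h : U →ₗ[k] U := ∑ b, (ev ∘ₗ α b).smulRight (E.symm (v b))
  have hh : ∀ w, h w = ∑ b, (α b w).coeff 1 • E.symm (v b) := fun w => by simp [h, LinearMap.sum_apply, hev]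
  refine ⟨h, fun x => ?_⟩
  rw [← hcancel, hΦ, map_sum, Loc.tr_apply]
  simp only [hh, Finset.smul_sum]
  rw [Finset.sum_comm]
  refine Finset.sum_congr rfl fun b _ => ?_
  rw [hsymm _ (hαs b x)]
  have h1 : ∀ c : S.C, (α b ((el (c : G)⁻¹ : MonoidAlgebra k G) • x)).coeff 1 = (α b x).coeff c := fun c => by
    rw [hα b _ (supp_el (S.C.inv_mem c.2)), smul_eq_mul, MonoidAlgebra.coeff_single_mul_apply, inv_inv, mul_one,
      one_mul]
  simp only [h1, smul_comm (el _ : MonoidAlgebra k G) (_ : k), ← smul_assoc]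
  rw [← Finset.sum_smul]
  congr 1
  ext g
  rw [MonoidAlgebra.coeff_sum, Finset.sum_apply']
  by_cases hg : g ∈ S.C
  · rw [Finset.sum_eq_single (⟨g, hg⟩ : S.C)]
    · rw [MonoidAlgebra.coeff_smul, Finsupp.smul_apply, MonoidAlgebra.coeff_single, Finsupp.single_eq_same,
        smul_eq_mul, mul_one]
    · intro c _ hne
      rw [MonoidAlgebra.coeff_smul, Finsupp.smul_apply, MonoidAlgebra.coeff_single,
        Finsupp.single_eq_of_ne (fun he : g = (c : G) => hne (Subtype.ext he.symm)), smul_zero]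
    · intro hn; exact absurd (Finset.mem_univ _) hn
  · rw [Finset.sum_eq_zero fun c _ => ?_]
    · by_contra hne
      exact hg (hαs b x g hne)
    · rw [MonoidAlgebra.coeff_smul, Finsupp.smul_apply, MonoidAlgebra.coeff_single,
        Finsupp.single_eq_of_ne (fun he : g = (c : G) => hg (he ▸ c.2)), smul_zero]

/-- The identity is a trace over the group. -/
theorem Glob.id_eq_tr (heU : ∀ u : U, Gl.eB • u = u) :
    ∃ H : U →ₗ[k] U, ∀ x, ∑ g : G, conjMap g H x = x := by
  classical
  obtain ⟨h, hh⟩ := Glob.f_eq_tr hno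
  have hwd : ∀ d ∈ Gl.D, cj d Gl.w = Gl.w := fun d hd => by
    rw [cj_eq, Gl.wD d hd, mul_assoc, el_mul, mul_inv_cancel, el_one, mul_one]
  let z₀ : MonoidAlgebra k G := ∑ q : G ⧸ Gl.D, cj q.out Gl.w
  have hmk : ∀ g : G, cj (g : G ⧸ Gl.D).out Gl.w = cj g Gl.w := fun g => by
    obtain ⟨d, hd⟩ := QuotientGroup.mk_out_eq_mul Gl.D g
    rw [hd, ← cj_cj, hwd _ d.2]
  have hsmul : ∀ (g : G) (q : G ⧸ Gl.D), cj (g • q).out Gl.w = cj g (cj q.out Gl.w) := fun g q => by
    obtain ⟨a, rfl⟩ := QuotientGroup.mk_surjective q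
    rw [show g • (a : G ⧸ Gl.D) = ((g * a : G) : G ⧸ Gl.D) from rfl, hmk, hmk, cj_cj]
  have hcen : ∀ a, z₀ * a = a * z₀ := commute_of_el fun g => by
    rw [el_mul_cj]
    congr 1
    simp only [z₀, map_sum]
    exact Fintype.sum_equiv (MulAction.toPerm g) _ _ fun q => by rw [MulAction.toPerm_apply, hsmul]
  have hbr : S.f * cut S.C z₀ = S.f := by
    let F : G ⧸ Gl.D → MonoidAlgebra k G := fun q => S.f * cut S.C (cj q.out Gl.w)
    have hfix : ∀ q : G ⧸ Gl.D, (∀ h : Subgroup.zpowers Gl.z, h • q = q) ↔ q.out ∈ Gl.N := by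
      intro q
      have key : ∀ g : G, g • q = q ↔ q.out⁻¹ * g * q.out ∈ Gl.D := by
        intro g
        have h1 : g • q = ((g * q.out : G) : G ⧸ Gl.D) := by
          conv_lhs => rw [← QuotientGroup.out_eq' q]
          rfl
        rw [h1]
        conv_lhs => rhs; rw [← QuotientGroup.out_eq' q]
        rw [eq_comm, QuotientGroup.eq, ← mul_assoc]
      refine ⟨fun h => Gl.inN _ ((key Gl.z).1 (h ⟨Gl.z, Subgroup.mem_zpowers _⟩)), fun hN h => ?_⟩
      show (h : G) • q = q
      rw [key]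
      obtain ⟨n, hn⟩ := h.2
      rw [← hn]
      show q.out⁻¹ * Gl.z ^ n * q.out ∈ _
      rw [show q.out⁻¹ * Gl.z ^ n * q.out = (q.out⁻¹ * Gl.z * q.out⁻¹⁻¹) ^ n by rw [conj_zpow, inv_inv]]
      exact Subgroup.zpow_mem _ (Subgroup.zpowers_le.2 Gl.zD (Gl.hN _ (Gl.N.inv_mem hN))) n
    have hsum : ∑ q, F q = ∑ q ∈ Finset.univ.filter (fun q : G ⧸ Gl.D => q.out ∈ Gl.N), F q := by
      ext x
      rw [MonoidAlgebra.coeff_sum, Finset.sum_apply', MonoidAlgebra.coeff_sum, Finset.sum_apply',
        sum_eq_sum_fixed Gl.isP (fun q => (F q).coeff x) ?_]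
      · exact Finset.sum_congr (Finset.filter_congr fun q _ => hfix q) fun _ _ => rfl
      · intro h q
        simp only [F]
        rw [show h • q = (h : G) • q from rfl, hsmul, cut_cj_of_centralizing ?_ (Subgroup.zpowers_le.2 Gl.zC h.2)]
        intro c hc
        obtain ⟨n, hn⟩ := h.2
        rw [← hn]
        exact ((show Commute c Gl.z from (Gl.hC c).1 hc).zpow_right n).eq
    have hTN : ∀ q ∈ Finset.univ.filter (fun q : G ⧸ Gl.D => q.out ∈ Gl.N),
        F q ≠ 0 → q.out ∈ S.T := by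
      intro q hq hne
      by_contra hT
      refine hne ?_
      have hqN := (Finset.mem_filter.1 hq).2
      simp only [F]
      rw [cut_eq_self (Gl.supp_conj hqN Gl.sw), cj_eq, ← Gl.fw]
      simp only [← mul_assoc]
      rw [Gl.orth _ hqN hT, zero_mul, zero_mul]
    have hz0 : S.f * cut S.C z₀ = ∑ q, F q := by simp only [z₀, map_sum, Finset.mul_sum, F]
    rw [hz0, hsum, ← Finset.sum_filter_of_ne hTN, Finset.filter_filter]
    have hT : ∀ q : G ⧸ Gl.D, q.out ∈ S.T → F q = cj q.out Gl.w := fun q hq => by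
      simp only [F]
      rw [cut_eq_self (Gl.supp_conj (Gl.TN hq) Gl.sw), cj_eq, ← mul_assoc, ← mul_assoc, ← Gl.fT _ hq,
        mul_assoc (el q.out), Gl.fw]
    refine Eq.trans ?_ Gl.wsum
    symm
    refine Finset.sum_bij (fun r _ => ((r.out : G) : G ⧸ Gl.D)) ?_ ?_ ?_ ?_
    · intro r _
      obtain ⟨d, hd⟩ := QuotientGroup.mk_out_eq_mul Gl.D (r.out : G)
      have hdT : ((r.out : G) : G ⧸ Gl.D).out ∈ S.T := by
        rw [hd]; exact S.T.mul_mem r.out.2 (S.CT (Gl.DC d.2))
      exact Finset.mem_filter.2 ⟨Finset.mem_univ _, Gl.TN hdT, hdT⟩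
    · intro r _ r' _ heq
      rw [← QuotientGroup.out_eq' r, ← QuotientGroup.out_eq' r']
      exact QuotientGroup.eq.2 (Subgroup.mem_subgroupOf.2
        (show ((r.out : G)⁻¹ * (r'.out : G)) ∈ Gl.D from QuotientGroup.eq.1 heq))
    · intro q hq
      have hqT := (Finset.mem_filter.1 hq).2.2
      refine ⟨((⟨q.out, hqT⟩ : S.T) : S.T ⧸ Gl.D.subgroupOf S.T), Finset.mem_univ _, ?_⟩
      obtain ⟨d, hd⟩ := QuotientGroup.mk_out_eq_mul (Gl.D.subgroupOf S.T) ⟨q.out, hqT⟩
      conv_rhs => rw [← QuotientGroup.out_eq' q]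
      refine QuotientGroup.eq.2 ?_
      rw [hd, Subgroup.coe_mul, mul_inv_rev, inv_mul_cancel_right]
      exact Gl.D.inv_mem d.2
    · intro r _
      obtain ⟨d, hd⟩ := QuotientGroup.mk_out_eq_mul Gl.D (r.out : G)
      have hdT : ((r.out : G) : G ⧸ Gl.D).out ∈ S.T := by
        rw [hd]; exact S.T.mul_mem r.out.2 (S.CT (Gl.DC d.2))
      rw [hT _ hdT, hmk, cj_eq]
  obtain ⟨c, hc⟩ := Gl.scal z₀ hcen
  have hc0 : c ≠ 0 := fun h0 => by
    rw [h0, zero_smul, sub_zero] at hc
    refine Gl.not_nilpotent (fun a => by rw [mul_assoc, hcen, ← mul_assoc, Gl.central, mul_assoc]) ?_ hc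
    have h1 := br_mul Gl.isP (fix_of_comm (P := Subgroup.zpowers Gl.z) Gl.central) (fix_of_comm hcen)
    rw [Br, Gl.centralizer_eq] at h1
    rw [h1, ← mul_assoc, Gl.feB, hbr]
  letI : MulAction Gl.D S.C := MulAction.compHom S.C (Subgroup.inclusion Gl.DC)
  obtain ⟨H, hH⟩ := exists_sum_free (H := Gl.D) (X := S.C)
    (fun d => conjMap (d : G)) (fun x => Algebra.lsmul k k U Gl.w ∘ₗ conjMap (x : G) h)
    (fun d x => LinearMap.ext fun u => by
      show Gl.w • conjMap ((d : G) * (x : G)) h u = conjMap (d : G) _ u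
      rw [conjMap_apply (d : G), ← conjMap_conjMap, conjMap_apply (d : G)]
      simp only [LinearMap.comp_apply, Algebra.lsmul_coe, smul_smul, Gl.wD _ d.2])
    (fun d x hx =>
      Subtype.ext (mul_eq_right.1 (show (d : G) * (x : G) = x from congrArg Subtype.val hx)))
  refine ⟨c⁻¹ • H, fun x => ?_⟩
  have hwf : Gl.w * S.f = Gl.w := by rw [← S.fcen _ Gl.sw, Gl.fw]
  have hwu : ∀ u : U, Gl.w • u = ∑ d : Gl.D, conjMap (d : G) H u := fun u => by
    have h1 := LinearMap.congr_fun hH u
    simp only [LinearMap.sum_apply, LinearMap.comp_apply, Algebra.lsmul_coe] at h1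
    rw [← h1, ← Finset.smul_sum, show ∑ i : S.C, conjMap (i : G) h u = Loc.tr S.C h u by
      rw [Loc.tr, LinearMap.sum_apply], ← hh, smul_smul, hwf]
  have h2 : z₀ • x = ∑ g : G, conjMap g H x := by
    simp only [z₀, Finset.sum_smul]
    rw [← sum_prod_coset Gl.D fun g => conjMap g H x]
    refine Finset.sum_congr rfl fun q _ => ?_
    rw [cj_eq, ← smul_smul, ← smul_smul, hwu, Finset.smul_sum]
    exact Finset.sum_congr rfl fun d _ => by rw [← conjMap_conjMap, conjMap_apply q.out]
  have h3 : ∀ g : G, conjMap g (c⁻¹ • H) x = c⁻¹ • conjMap g H x := fun g => by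
    rw [conjMap_apply, conjMap_apply, LinearMap.smul_apply, smul_comm]
  rw [Finset.sum_congr rfl fun g _ => h3 g, ← Finset.smul_sum, ← h2, Gl.central_smul heU hcen hc,
    inv_smul_smul₀ hc0]

/-- Every simple module of the block has a label. -/
theorem Glob.false_of_all_top (heU : ∀ u : U, Gl.eB • u = u) : False := by
  classical
  obtain ⟨H, hH⟩ := Gl.id_eq_tr hno heU
  let ρ := Algebra.lsmul (A := MonoidAlgebra k G) k k U
  have hρ : ∀ g (A : Module.End k U), conjMap g A = ρ (el g) * A * ρ (el g⁻¹) := fun g A => rfl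
  have hsum : ∑ g : G, conjMap g H = (1 : Module.End k U) := LinearMap.ext fun x => by
    rw [LinearMap.sum_apply, hH]; rfl
  have hscal : ∀ A : U →ₗ[k] U, ∃ l : k, ∀ x, ∑ g : G, conjMap g A x = l • x := fun A => by
    have hel : ∀ h x, ∑ g : G, conjMap g A ((el h : MonoidAlgebra k G) • x) =
        (el h : MonoidAlgebra k G) • ∑ g : G, conjMap g A x := fun h x => by
      rw [Finset.smul_sum]
      refine (Fintype.sum_equiv (Equiv.mulLeft h) _ _ fun g => ?_).symm
      rw [Equiv.coe_mulLeft, ← conjMap_conjMap, conjMap_apply h, Loc.inv_smul_el]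
    let Y : U →ₗ[MonoidAlgebra k G] U :=
      { toFun := fun x => ∑ g : G, conjMap g A x
        map_add' := fun a b => by simp only [map_add, Finset.sum_add_distrib]
        map_smul' := fun a x => by
          rw [RingHom.id_apply, ← TwoChar.sum_single' a, Finset.sum_smul, Finset.sum_smul]
          simp only [map_sum]
          rw [Finset.sum_comm]
          refine Finset.sum_congr rfl fun i _ => ?_
          rw [show MonoidAlgebra.single i (a.coeff i) = a.coeff i • (el i : MonoidAlgebra k G) by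
            rw [MonoidAlgebra.smul_single, smul_eq_mul, mul_one], smul_assoc, smul_assoc, ← hel, Finset.smul_sum]
          exact Finset.sum_congr rfl fun g _ => by rw [map_smul] }
    exact exists_scalar Y
  choose l hl using hscal
  let t := LinearMap.trace k U
  have hkey : ∀ A : Module.End k U, l A * t H = t A := fun A => by
    have h1 : (∑ g : G, conjMap g A) * H = l A • H := LinearMap.ext fun x => by
      show (∑ g : G, conjMap g A) (H x) = _
      rw [LinearMap.sum_apply, hl, LinearMap.smul_apply]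
    calc l A * t H = t ((∑ g : G, conjMap g A) * H) := by rw [h1, map_smul, smul_eq_mul]
      _ = ∑ g, t (A * conjMap g⁻¹ H) := by
        rw [Finset.sum_mul, map_sum]
        refine Finset.sum_congr rfl fun g _ => ?_
        rw [hρ g, hρ g⁻¹ H, inv_inv, mul_assoc (ρ (el g)), mul_assoc (ρ (el g)), LinearMap.trace_mul_comm]
        simp only [mul_assoc]
        rfl
      _ = t (A * ∑ g : G, conjMap g H) := by
        rw [Finset.mul_sum, map_sum]
        exact Fintype.sum_equiv (Equiv.inv G) _ _ fun g => rfl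
      _ = t A := by rw [hsum, mul_one]
  haveI : Nontrivial U := IsSimpleModule.nontrivial (MonoidAlgebra k G) U
  let BU := Module.finBasis k U
  let ε : MonoidAlgebra k G := t H • ∑ g, t (ρ (el g⁻¹)) • (el g : MonoidAlgebra k G)
  have hεU : ∀ u : U, ε • u = u := fun u => by
    have htr : ∀ g, t (ρ (el g)) = ∑ a, BU.coord a ((el g : MonoidAlgebra k G) • BU a) := fun g => by
      rw [show t (ρ (el g)) = _ from LinearMap.trace_eq_matrix_trace k BU _, Matrix.trace]
      exact Finset.sum_congr rfl fun a _ => by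
        rw [Matrix.diag_apply, LinearMap.toMatrix_apply, Module.Basis.coord_apply]; rfl
    have h1 : ∀ g, (t (ρ (el g⁻¹)) • (el g : MonoidAlgebra k G)) • u =
        ∑ a, conjMap g ((BU.coord a).smulRight u) (BU a) := fun g => by
      rw [smul_assoc, htr, Finset.sum_smul]
      exact Finset.sum_congr rfl fun a _ => by rw [conjMap_apply, LinearMap.smulRight_apply, smul_comm]
    simp only [ε]
    rw [smul_assoc, Finset.sum_smul, Finset.sum_congr rfl fun g _ => h1 g, Finset.sum_comm, Finset.smul_sum]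
    conv_rhs => rw [← BU.sum_repr u]
    refine Finset.sum_congr rfl fun a _ => ?_
    rw [hl, smul_smul, mul_comm, hkey]
    congr 1
    show LinearMap.trace k U ((BU.coord a).smulRight u) = _
    rw [LinearMap.trace_smulRight, Module.Basis.coord_apply]
  have hεcj : ∀ h, cj h ε = ε := fun h => by
    simp only [ε, cj_smul, map_sum]
    congr 1
    refine Fintype.sum_equiv (MulAut.conj h).toEquiv _ _ fun g => ?_
    rw [cj_eq, el_mul, el_mul]
    simp only [MulEquiv.toEquiv_eq_coe, EquivLike.coe_coe, MulAut.conj_apply]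
    congr 1
    rw [show (h * g * h⁻¹)⁻¹ = h * g⁻¹ * h⁻¹ by simp [mul_assoc], ← el_mul, ← el_mul, map_mul ρ,
      show ∀ A B : Module.End k U, t (A * B) = t (B * A) from fun A B => LinearMap.trace_mul_comm k A B,
      ← map_mul ρ, ← mul_assoc, el_mul, inv_mul_cancel, el_one, one_mul]
  have hεcen : ∀ a, ε * a = a * ε := commute_of_el fun g => by rw [el_mul_cj, hεcj]
  have hbr : cut S.C ε = 0 := by
    ext x
    by_cases hx : x ∈ S.C
    swap
    · rw [coeff_cut_of_notMem _ hx]; rfl
    have hzero : t (ρ (el x⁻¹)) = 0 := by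
      have h1 : t (ρ (el x⁻¹)) = ∑ g, t (ρ (el (g⁻¹ * x⁻¹ * g)) * H) := by
        conv_lhs => rw [← mul_one (ρ (el x⁻¹)), ← hsum, Finset.mul_sum, map_sum]
        refine Finset.sum_congr rfl fun g _ => ?_
        rw [hρ, ← mul_assoc, ← mul_assoc, ← map_mul, el_mul, LinearMap.trace_mul_comm, ← mul_assoc, ← map_mul,
          el_mul, mul_assoc g⁻¹]
      rw [h1, sum_eq_sum_fixed Gl.isP (fun g => t (ρ (el (g⁻¹ * x⁻¹ * g)) * H)) ?_]
      · rw [Finset.filter_false_of_mem, Finset.sum_empty]
        intro g _ hg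
        have h2 : Gl.z * g = g := hg ⟨Gl.z, Subgroup.mem_zpowers _⟩
        have h3 := Gl.hz
        rw [mul_eq_right.1 h2, orderOf_one] at h3
        exact (Fact.out : p.Prime).one_lt.ne h3
      · rintro ⟨hh, n, rfl⟩ g
        show t (ρ (el ((Gl.z ^ n * g)⁻¹ * x⁻¹ * (Gl.z ^ n * g))) * H) = _
        have h4 : (Gl.z ^ n)⁻¹ * x⁻¹ * Gl.z ^ n = x⁻¹ := by
          have h5 : Commute x⁻¹ (Gl.z ^ n) := ((show Commute x Gl.z from (Gl.hC x).1 hx).inv_left).zpow_right n
          rw [mul_assoc, h5.eq, inv_mul_cancel_left]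
        rw [show (Gl.z ^ n * g)⁻¹ * x⁻¹ * (Gl.z ^ n * g) = g⁻¹ * ((Gl.z ^ n)⁻¹ * x⁻¹ * Gl.z ^ n) * g by
          simp [mul_assoc], h4]
    rw [coeff_cut_of_mem _ hx]
    simp only [ε]
    rw [MonoidAlgebra.coeff_smul, Finsupp.smul_apply, MonoidAlgebra.coeff_sum, Finset.sum_apply',
      Finset.sum_eq_single x]
    · rw [hzero, zero_smul]; simp
    · intro g _ hne
      rw [MonoidAlgebra.coeff_smul, Finsupp.smul_apply, MonoidAlgebra.coeff_single,
        Finsupp.single_eq_of_ne (Ne.symm hne), smul_zero]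
    · intro hn; exact absurd (Finset.mem_univ _) hn
  obtain ⟨c, hc⟩ := Gl.scal ε hεcen
  have hc1 : c = 1 := by
    obtain ⟨u, hu⟩ := exists_ne (0 : U)
    have h1 := Gl.central_smul heU hεcen hc u
    rw [hεU] at h1
    have h2 : (c - 1) • u = 0 := by rw [sub_smul, one_smul, ← h1, sub_self]
    exact sub_eq_zero.1 ((smul_eq_zero.1 h2).resolve_right hu)
  rw [hc1, one_smul] at hc
  refine Gl.not_nilpotent (x := -(Gl.eB * ε - Gl.eB)) (fun a => ?_) ?_ hc.neg
  · rw [neg_mul, mul_neg, sub_mul, mul_sub, mul_assoc, hεcen, ← mul_assoc, Gl.central, mul_assoc]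
  · have h1 := br_mul Gl.isP (fix_of_comm (P := Subgroup.zpowers Gl.z) Gl.central) (fix_of_comm hεcen)
    rw [Br, Gl.centralizer_eq] at h1
    rw [map_neg, map_sub, h1, hbr, mul_zero, zero_sub, neg_neg, Gl.feB]

end Module

end CfsgLib.Blocks.CyclicRank
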