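import Cfsg.Agent.Blocks.CyclicRank.Data
import Cfsg.Agent.Blocks.TwoChar.Main

/-!
# Traces from the centralizer and maps between restrictions to the inertial group
-/

set_option autoImplicit false
set_option linter.unusedSectionVars false
set_option linter.style.haveILetI false

namespace CfsgLib.Blocks.CyclicRank

open CfsgLib.Blocks.CyclicRankOne CfsgLib.PairAlg

/-- A sum of an equivariant family over a free action is a trace. -/
theorem exists_sum_free {H X M : Type*} [Group H] [Fintype H] [MulAction H X] [Fintype X] [AddCommMonoid M]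
    (act : H → M →+ M) (F : X → M) (hF : ∀ h x, F (h • x) = act h (F x))
    (hfree : ∀ (h : H) (x : X), h • x = x → h = 1) : ∃ m : M, ∑ x, F x = ∑ h, act h m := by
  classical
  let w : X → Prop := fun x => x = (Quotient.mk (MulAction.orbitRel H X) x).out
  refine ⟨∑ x, if w x then F x else 0, ?_⟩
  simp only [map_sum, apply_ite (act _), map_zero, ← hF]
  have h1 : ∀ h : H, ∑ x, (if w x then F (h • x) else 0) = ∑ x, if w (h⁻¹ • x) then F x else 0 := fun h => by
    rw [← Equiv.sum_comp (MulAction.toPerm h) (fun x => if w (h⁻¹ • x) then F x else 0)]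
    simp
  simp only [h1]
  rw [Finset.sum_comm]
  refine Finset.sum_congr rfl fun x _ => ?_
  obtain ⟨o, ho⟩ : ∃ o, o = (Quotient.mk (MulAction.orbitRel H X) x).out := ⟨_, rfl⟩
  obtain ⟨a, ha⟩ : ∃ a : H, a • o = x := by
    have h1 : x ∈ MulAction.orbit H o :=
      MulAction.orbitRel_apply.1 (Quotient.eq.1 (ho ▸ (Quotient.out_eq _).symm))
    exact h1
  rw [Finset.sum_eq_single a, if_pos]
  · show a⁻¹ • x = _
    rw [← ha, inv_smul_smul]
    exact ho.trans (by rw [ho, Quotient.out_eq])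
  · intro b _ hne
    refine if_neg fun hw => hne ?_
    have hq : Quotient.mk (MulAction.orbitRel H X) (b⁻¹ • x) = Quotient.mk _ x :=
      Quotient.sound (MulAction.orbitRel_apply.2 ⟨b⁻¹, rfl⟩)
    have h2 : b⁻¹ • x = o := hw.trans (by rw [hq, ← ho])
    have h3 : (b⁻¹ * a) • o = o := by rw [mul_smul, ha, h2]
    exact inv_mul_eq_one.1 (hfree _ _ h3)
  · intro h; exact absurd (Finset.mem_univ a) h

variable {k : Type} [Field k] {G : Type*} [Group G] [Fintype G]

section Module

variable {U V : Type*} [AddCommGroup U] [Module k U] [Module (MonoidAlgebra k G) U]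
  [IsScalarTower k (MonoidAlgebra k G) U]
  [AddCommGroup V] [Module k V] [Module (MonoidAlgebra k G) V] [IsScalarTower k (MonoidAlgebra k G) V]

/-- Conjugating a linear map by a group element. -/
noncomputable def conjMap (g : G) : (U →ₗ[k] V) →+ (U →ₗ[k] V) where
  toFun h := Algebra.lsmul k k V (el g : MonoidAlgebra k G) ∘ₗ h ∘ₗ Algebra.lsmul k k U (el g⁻¹ : MonoidAlgebra k G)
  map_zero' := by simp
  map_add' a b := by rw [LinearMap.add_comp, LinearMap.comp_add]

theorem conjMap_apply (g : G) (h : U →ₗ[k] V) (x : U) :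
    conjMap g h x = (el g : MonoidAlgebra k G) • h ((el g⁻¹ : MonoidAlgebra k G) • x) := rfl

theorem conjMap_conjMap (g g' : G) (h : U →ₗ[k] V) : conjMap g (conjMap g' h) = conjMap (g * g') h := by
  refine LinearMap.ext fun x => ?_
  simp only [conjMap_apply, smul_smul, el_mul, mul_inv_rev]

theorem conjMap_one (h : U →ₗ[k] V) : conjMap (1 : G) h = h := by
  refine LinearMap.ext fun x => ?_
  rw [conjMap_apply, inv_one, el_one, one_smul, one_smul]

namespace Loc

variable (S : Loc k G)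

noncomputable local instance instFintypeSubgroupCyclicRankTrace (K : Subgroup G) : Fintype K := Fintype.ofFinite K

/-- The trace from the trivial subgroup to a subgroup. -/
noncomputable def tr (K : Subgroup G) (h : U →ₗ[k] V) : U →ₗ[k] V := ∑ τ : K, conjMap (τ : G) h

theorem tr_apply (K : Subgroup G) (h : U →ₗ[k] V) (x : U) :
    tr K h x = ∑ τ : K, (el (τ : G) : MonoidAlgebra k G) • h ((el (τ : G)⁻¹ : MonoidAlgebra k G) • x) := by
  simp [tr, LinearMap.sum_apply, conjMap_apply]

theorem tr_T (h : U →ₗ[k] V) : tr S.T h = tr S.C (∑ i ∈ Finset.range S.e, conjMap (S.t ^ i) h) := by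
  classical
  have hn : ∀ (i : ℕ) c, c ∈ S.C → S.t ^ i * c * (S.t ^ i)⁻¹ ∈ S.C := by
    intro i
    induction i with
    | zero => intro c hc; simpa using hc
    | succ i ih =>
      intro c hc
      have := (S.tnorm _).1 (ih c hc)
      rw [pow_succ', mul_inv_rev]
      simpa only [mul_assoc] using this
  simp only [tr, map_sum]
  rw [Finset.sum_comm, Finset.sum_congr rfl fun c _ => Finset.sum_congr rfl fun i _ => conjMap_conjMap _ _ h,
    ← Finset.sum_product']
  symm
  refine Finset.sum_bij (fun x _ => (⟨(x.2 : G) * S.t ^ x.1, S.T.mul_mem (S.CT x.2.2) (S.T.pow_mem S.tT _)⟩ : S.T))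
    (fun _ _ => Finset.mem_univ _) ?_ ?_ (fun _ _ => rfl)
  · rintro ⟨i, c⟩ hci ⟨i', c'⟩ hci' heq
    have hi := Finset.mem_range.1 (Finset.mem_product.1 hci).1
    have hi' := Finset.mem_range.1 (Finset.mem_product.1 hci').1
    have h0 : (c : G) * S.t ^ i = (c' : G) * S.t ^ i' := congrArg Subtype.val heq
    have key : ∀ (a b : S.C) (x z : ℕ), x ≤ z → z < S.e → (a : G) * S.t ^ x = (b : G) * S.t ^ z → x = z := by
      intro a b x z hxz hz h
      have : S.t ^ (z - x) ∈ S.C := by
        have h2 : S.t ^ (z - x) = (b : G)⁻¹ * a := by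
          rw [← Nat.sub_add_cancel hxz, pow_add, ← mul_assoc, mul_left_inj] at h
          rw [h, inv_mul_cancel_left]
        rw [h2]
        exact S.C.mul_mem (S.C.inv_mem b.2) a.2
      have := fun h => Nat.le_of_dvd h ((S.powC _).1 this)
      by_contra hne
      have := this (by omega)
      omega
    have hii : i = i' := by
      rcases le_total i i' with h | h
      · exact key c c' i i' h hi' h0
      · exact (key c' c i' i h hi h0.symm).symm
    subst hii
    rw [mul_left_inj] at h0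
    exact Prod.ext rfl (Subtype.ext h0)
  · intro τ _
    obtain ⟨i, hi, c, hc, hτ⟩ := S.cover τ τ.2
    exact ⟨(i, ⟨_, hn i c hc⟩), Finset.mem_product.2 ⟨Finset.mem_range.2 hi, Finset.mem_univ _⟩,
      Subtype.ext (by show S.t ^ i * c * (S.t ^ i)⁻¹ * S.t ^ i = τ; rw [inv_mul_cancel_right, ← hτ])⟩

/-- A trace carries the annihilator into the top power. -/
theorem tr_top [FiniteDimensional k V] (h : U →ₗ[k] V) {x : U} (hx : S.Ker x) : S.Top (tr S.T h x) := by
  classical
  rw [tr_T]
  set g := ∑ i ∈ Finset.range S.e, conjMap (S.t ^ i) h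
  let B := Module.finBasis k V
  let Φ : Fin (Module.finrank k V) → U →ₗ[k] MonoidAlgebra k G := fun b =>
    ∑ c : S.C, ((B.coord b) ∘ₗ g ∘ₗ Algebra.lsmul k k U (el (c : G)⁻¹ : MonoidAlgebra k G)).smulRight (el (c : G))
  have hΦ : ∀ b z, Φ b z = ∑ c : S.C, B.coord b (g ((el (c : G)⁻¹ : MonoidAlgebra k G) • z)) •
      (el (c : G) : MonoidAlgebra k G) := fun b z => by simp [Φ, LinearMap.sum_apply]
  have hel : ∀ b (d : G), d ∈ S.C → ∀ z, Φ b ((el d : MonoidAlgebra k G) • z) = el d * Φ b z := by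
    intro b d hd z
    rw [hΦ, hΦ, Finset.mul_sum, ← Equiv.sum_comp (Equiv.mulLeft (⟨d, hd⟩ : S.C))]
    refine Finset.sum_congr rfl fun c _ => ?_
    simp only [Equiv.coe_mulLeft, Subgroup.coe_mul, mul_inv_rev, smul_smul, el_mul, inv_mul_cancel_right,
      mul_smul_comm]
  have hlin : ∀ b a, Supp S.C a → ∀ z, Φ b (a • z) = a * Φ b z := by
    intro b a ha z
    rw [← TwoChar.sum_single' a, Finset.sum_smul, map_sum, Finset.sum_mul]
    refine Finset.sum_congr rfl fun d _ => ?_
    by_cases hd : a.coeff d = 0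
    · rw [hd, MonoidAlgebra.single_zero, zero_smul, map_zero, zero_mul]
    · rw [show MonoidAlgebra.single d (a.coeff d) = a.coeff d • (el d : MonoidAlgebra k G) by
        rw [MonoidAlgebra.smul_single, smul_eq_mul, mul_one], smul_assoc, map_smul, hel b d (ha d hd),
        smul_mul_assoc]
  have hsupp : ∀ b z, Supp S.C (Φ b z) := fun b z g' hg' => by
    by_contra hg
    refine hg' ?_
    rw [hΦ, MonoidAlgebra.coeff_sum, Finset.sum_apply']
    refine Finset.sum_eq_zero fun c _ => ?_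
    rw [MonoidAlgebra.coeff_smul, Finsupp.smul_apply, MonoidAlgebra.coeff_single, Finsupp.single_apply,
      if_neg (fun e : (c : G) = g' => hg (e ▸ c.2)), smul_zero]
  have hexp : tr S.C g x = ∑ b, Φ b x • B b := by
    rw [tr_apply]
    simp only [hΦ, Finset.sum_smul, smul_assoc]
    rw [Finset.sum_comm]
    refine Finset.sum_congr rfl fun c _ => ?_
    conv_lhs => rw [← B.sum_repr (g ((el (c : G)⁻¹ : MonoidAlgebra k G) • x)), Finset.smul_sum]
    exact Finset.sum_congr rfl fun b _ => by rw [smul_comm, Module.Basis.coord_apply]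
  have hmem : ∀ b, ∃ r, Φ b x = S.y ^ S.m * r := fun b => S.mem_top_of_kill (hsupp b x)
    (by rw [← hlin b _ S.sf, hx.1]) (by rw [← hlin b _ S.sy, hx.2, map_zero])
  choose r hr using hmem
  refine ⟨∑ b, r b • B b, ?_⟩
  rw [hexp, Finset.smul_sum]
  exact Finset.sum_congr rfl fun b _ => by rw [hr, smul_smul]

/-- A map commuting with the inertial group is, up to a trace, cut from a module map. -/
theorem exists_hom (D : Subgroup G) (hDT : D ≤ S.T) (N : Subgroup G) (hTN : S.T ≤ N)
    (w : MonoidAlgebra k G) (hwD : ∀ d ∈ D, el d * w = w * el d)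
    [Fintype (S.T ⧸ D.subgroupOf S.T)]
    (hw : ∑ r : S.T ⧸ D.subgroupOf S.T, el (r.out : G) * w * el (r.out : G)⁻¹ = S.f)
    (hfree : ∀ (c d τ : G), d ∈ S.T → τ ∈ S.T → τ ≠ 1 → c⁻¹ * τ * c ∈ D → d⁻¹ * τ * d ∈ D → c ∈ N)
    (horth : ∀ c ∈ N, c ∉ S.T → S.f * el c * S.f = 0)
    (hfT : ∀ τ ∈ S.T, el τ * S.f = S.f * el τ)
    (R : U →ₗ[k] V) (hR : ∀ τ ∈ S.T, ∀ x, R ((el τ : MonoidAlgebra k G) • x) = (el τ : MonoidAlgebra k G) • R x)
    (hRl : ∀ x, S.f • R x = R x) (hRr : ∀ x, R (S.f • x) = R x) :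
    ∃ (Y : U →ₗ[MonoidAlgebra k G] V) (h : U →ₗ[k] V),
      ∀ x, S.f • Y (S.f • x) = R x + tr S.T h x := by
  classical
  letI : Fintype (G ⧸ D) := Fintype.ofFinite _
  let k0 : U →ₗ[k] V := R ∘ₗ Algebra.lsmul k k U w
  have hk0 : ∀ x, k0 x = R (w • x) := fun x => rfl
  have hk0D : ∀ d ∈ D, conjMap d k0 = k0 := fun d hd => LinearMap.ext fun x => by
    rw [conjMap_apply, hk0, hk0, smul_smul, ← hwD _ (D.inv_mem hd), ← smul_smul, hR _ (hDT (D.inv_mem hd)),
      smul_smul, el_mul, mul_inv_cancel, el_one, one_smul]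
  let K : G ⧸ D → U →ₗ[k] V := fun q => conjMap q.out k0
  have hKmk : ∀ g : G, K (g : G ⧸ D) = conjMap g k0 := fun g => by
    obtain ⟨d, hd⟩ := QuotientGroup.mk_out_eq_mul D g
    show conjMap (g : G ⧸ D).out k0 = _
    rw [hd, ← conjMap_conjMap, hk0D _ d.2]
  have hKsmul : ∀ (g : G) q, K (g • q) = conjMap g (K q) := fun g q => by
    obtain ⟨a, rfl⟩ := QuotientGroup.mk_surjective q
    rw [show g • (a : G ⧸ D) = ((g * a : G) : G ⧸ D) from rfl, hKmk, hKmk, conjMap_conjMap]
  let Y₀ : U →ₗ[k] V := ∑ q, K q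
  have hY : ∀ g x, Y₀ ((el g : MonoidAlgebra k G) • x) = (el g : MonoidAlgebra k G) • Y₀ x := fun g x => by
    simp only [Y₀, LinearMap.sum_apply, Finset.smul_sum]
    rw [← Equiv.sum_comp (MulAction.toPerm g) fun q => K q ((el g : MonoidAlgebra k G) • x)]
    refine Finset.sum_congr rfl fun q _ => ?_
    rw [MulAction.toPerm_apply, hKsmul, conjMap_apply, Loc.inv_smul_el]
  have hYA : ∀ (a : MonoidAlgebra k G) x, Y₀ (a • x) = a • Y₀ x := fun a x => by
    rw [← TwoChar.sum_single' a, Finset.sum_smul, map_sum, Finset.sum_smul]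
    refine Finset.sum_congr rfl fun g _ => ?_
    rw [show MonoidAlgebra.single g (a.coeff g) = a.coeff g • (el g : MonoidAlgebra k G) by
      rw [MonoidAlgebra.smul_single, smul_eq_mul, mul_one], smul_assoc, map_smul, hY, smul_assoc]
  let Y : U →ₗ[MonoidAlgebra k G] V := { toFun := Y₀, map_add' := map_add Y₀, map_smul' := hYA }
  let cutf : (U →ₗ[k] V) →+ (U →ₗ[k] V) :=
    { toFun := fun g => Algebra.lsmul k k V S.f ∘ₗ g ∘ₗ Algebra.lsmul k k U S.f
      map_zero' := by simp
      map_add' := fun a b => by rw [LinearMap.add_comp, LinearMap.comp_add] }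
  have hcut : ∀ g x, cutf g x = S.f • g (S.f • x) := fun g x => rfl
  -- the three parts
  let inT : G ⧸ D → Prop := fun q => q.out ∈ S.T
  let inN : G ⧸ D → Prop := fun q => q.out ∈ N
  have hmid : ∀ q, inN q → ¬ inT q → cutf (K q) = 0 := fun q h1 h2 => LinearMap.ext fun x => by
    rw [hcut, conjMap_apply, hk0, ← hRl, smul_smul, smul_smul, horth _ h1 h2, zero_smul, LinearMap.zero_apply]
  have hTpart : ∀ x, ∑ q ∈ Finset.univ.filter inT, cutf (K q) x = R x := fun x => by
    let ι : S.T ⧸ D.subgroupOf S.T → G ⧸ D := fun r => ((r.out : G) : G ⧸ D)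
    rw [← Finset.sum_bij (s := (Finset.univ : Finset (S.T ⧸ D.subgroupOf S.T))) (t := Finset.univ.filter inT)
      (f := fun r => cutf (conjMap (r.out : G) k0) x) (g := fun q => cutf (K q) x) (fun r _ => ι r)]
    · simp only [hcut, conjMap_apply, hk0, ← hR _ (Subtype.prop (Quotient.out _))]
      rw [← Finset.smul_sum, ← map_sum, Finset.sum_congr rfl fun r _ => by
        rw [smul_smul, smul_smul], ← Finset.sum_smul, hw, smul_smul, S.fidem, hRr, hRl]
    · intro r _
      refine Finset.mem_filter.2 ⟨Finset.mem_univ _, ?_⟩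
      obtain ⟨d, hd⟩ := QuotientGroup.mk_out_eq_mul D (r.out : G)
      show ((r.out : G) : G ⧸ D).out ∈ S.T
      rw [hd]
      exact S.T.mul_mem r.out.2 (hDT d.2)
    · intro r _ r' _ heq
      have h1 : (r.out : G)⁻¹ * (r'.out : G) ∈ D := QuotientGroup.eq.1 heq
      rw [← QuotientGroup.out_eq' r, ← QuotientGroup.out_eq' r']
      exact QuotientGroup.eq.2 h1
    · intro q hq
      refine ⟨((⟨q.out, (Finset.mem_filter.1 hq).2⟩ : S.T) : S.T ⧸ D.subgroupOf S.T), Finset.mem_univ _, ?_⟩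
      obtain ⟨d, hd⟩ := QuotientGroup.mk_out_eq_mul (D.subgroupOf S.T) ⟨q.out, (Finset.mem_filter.1 hq).2⟩
      conv_rhs => rw [← QuotientGroup.out_eq' q]
      refine QuotientGroup.eq.2 ?_
      rw [hd, Subgroup.coe_mul, mul_inv_rev, inv_mul_cancel_right]
      exact D.inv_mem d.2
    · intro r _
      rw [hKmk]
  -- the free part
  let W : S.T ⧸ D.subgroupOf S.T → MonoidAlgebra k G := fun r => el (r.out : G) * w * el (r.out : G)⁻¹
  have hWmk : ∀ a : S.T, W (a : S.T ⧸ D.subgroupOf S.T) = el (a : G) * w * el (a : G)⁻¹ := fun a => by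
    obtain ⟨d, hd⟩ := QuotientGroup.mk_out_eq_mul (D.subgroupOf S.T) a
    simp only [W]
    rw [hd, Subgroup.coe_mul, mul_inv_rev, ← el_mul, ← el_mul ((d : S.T) : G)⁻¹, mul_assoc (el (a : G)),
      hwD _ (show ((d : S.T) : G) ∈ D from d.2)]
    simp only [mul_assoc]
    rw [← mul_assoc (el ((d : S.T) : G)) (el ((d : S.T) : G)⁻¹), el_mul, mul_inv_cancel, el_one, one_mul]
  letI hXact : MulAction S.T {q : G ⧸ D // ¬ inN q} :=
    { smul := fun τ q => ⟨(τ : G) • q.1, fun h => q.2 (by
        show q.1.out ∈ N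
        obtain ⟨a, ha⟩ := QuotientGroup.mk_out_eq_mul D ((τ : G) * q.1.out)
        have h' : ((τ : G) • q.1).out ∈ N := h
        rw [show (τ : G) • q.1 = (((τ : G) * q.1.out : G) : G ⧸ D) by
          conv_lhs => rw [← QuotientGroup.out_eq' q.1]
          rfl, ha] at h'
        exact (N.mul_mem_cancel_left (hTN τ.2)).1 ((N.mul_mem_cancel_right (hTN (hDT a.2))).1 h'))⟩
      one_smul := fun q => Subtype.ext (one_smul G q.1)
      mul_smul := fun a b q => Subtype.ext (mul_smul (a : G) (b : G) q.1) }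
  let F : {q : G ⧸ D // ¬ inN q} × (S.T ⧸ D.subgroupOf S.T) → U →ₗ[k] V :=
    fun x => cutf (K x.1.1) ∘ₗ Algebra.lsmul k k U (W x.2)
  have hF : ∀ (τ : S.T) x, F (τ • x) = conjMap (τ : G) (F x) := by
    rintro τ ⟨q, r⟩
    obtain ⟨a, rfl⟩ := QuotientGroup.mk_surjective r
    refine LinearMap.ext fun z => ?_
    show S.f • K ((τ : G) • q.1) (S.f • W ((τ * a : S.T) : S.T ⧸ D.subgroupOf S.T) • z) = _
    rw [conjMap_apply (τ : G)]
    show _ = (el (τ : G) : MonoidAlgebra k G) • S.f • K q.1 (S.f • W ((a : S.T ⧸ D.subgroupOf S.T)) • _)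
    rw [hKsmul, conjMap_apply, hWmk, hWmk, Subgroup.coe_mul, mul_inv_rev, ← el_mul, ← el_mul (a : G)⁻¹]
    simp only [smul_smul]
    rw [← mul_assoc (el (τ : G)⁻¹), hfT _ (S.T.inv_mem τ.2), hfT _ τ.2]
    congr 3
    simp only [mul_assoc]
    rw [← mul_assoc (el (τ : G)⁻¹) (el (τ : G)), el_mul, inv_mul_cancel, el_one, one_mul]
  obtain ⟨h, hh⟩ := exists_sum_free (fun τ : S.T => conjMap (τ : G)) F hF (fun τ x hx => by
    obtain ⟨q, r⟩ := x
    have hq : (τ : G) • q.1 = q.1 := congrArg (fun z => (z.1 : G ⧸ D)) (congrArg Prod.fst hx) |> fun h => h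
    have hr : τ • r = r := congrArg Prod.snd hx
    have h1 : q.1.out⁻¹ * (τ : G) * q.1.out ∈ D := by
      have h2 : (((τ : G) * q.1.out : G) : G ⧸ D) = ((q.1.out : G) : G ⧸ D) := by
        conv_rhs => rw [QuotientGroup.out_eq', ← hq, ← QuotientGroup.out_eq' q.1]
        rfl
      have := D.inv_mem (QuotientGroup.eq.1 h2)
      simpa [mul_assoc] using this
    have h3 : (r.out : G)⁻¹ * (τ : G) * (r.out : G) ∈ D := by
      have h2 : ((τ * r.out : S.T) : S.T ⧸ D.subgroupOf S.T) = ((r.out : S.T) : S.T ⧸ D.subgroupOf S.T) := by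
        conv_rhs => rw [QuotientGroup.out_eq', ← hr, ← QuotientGroup.out_eq' r]
        rfl
      have := D.inv_mem (Subgroup.mem_subgroupOf.1 (QuotientGroup.eq.1 h2))
      simpa [mul_assoc] using this
    by_contra hne
    exact q.2 (hfree _ _ _ r.out.2 τ.2 (fun h => hne (Subtype.ext h)) h1 h3))
  refine ⟨Y, h, fun x => ?_⟩
  have hsplit : S.f • Y (S.f • x) = ∑ q, cutf (K q) x := by
    show S.f • Y₀ (S.f • x) = _
    simp only [Y₀, LinearMap.sum_apply, Finset.smul_sum, hcut]
  rw [hsplit, ← Finset.sum_filter_add_sum_filter_not Finset.univ inT, hTpart]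
  congr 1
  have hrest : ∑ q ∈ Finset.univ.filter (fun q => ¬ inT q), cutf (K q) x =
      ∑ q : {q : G ⧸ D // ¬ inN q}, cutf (K q.1) x := by
    rw [← Finset.sum_subtype (Finset.univ.filter fun q => ¬ inN q) (fun q => by simp) fun q => cutf (K q) x]
    refine (Finset.sum_subset (fun q hq => ?_) fun q hq hq' => ?_).symm
    · simp only [Finset.mem_filter, Finset.mem_univ, true_and] at hq ⊢
      exact fun h => hq (hTN h)
    · simp only [Finset.mem_filter, Finset.mem_univ, true_and, not_not] at hq hq'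
      rw [hmid q hq' hq, LinearMap.zero_apply]
  rw [hrest, tr, ← hh, LinearMap.sum_apply, Fintype.sum_prod_type]
  refine Finset.sum_congr rfl fun q _ => ?_
  simp only [F, LinearMap.comp_apply, Algebra.lsmul_coe, hcut]
  rw [← Finset.smul_sum, ← map_sum, ← Finset.smul_sum, ← Finset.sum_smul, hw, smul_smul, S.fidem]

end Loc

end Module

end CfsgLib.Blocks.CyclicRank
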